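import Cfsg.Agent.AltS.Chain

set_option autoImplicit false

namespace Cfsg.Agent.AltS

open Module

variable {k V G α : Type*} [Field k] [AddCommGroup V] [Module k V] [Group G]
  [Fintype α] [DecidableEq α] {f : G →* alternatingGroup α}

/-- conjugation of operators. -/
def cj (ρ : G →* Module.End k V) (g : G) (X : Module.End k V) : Module.End k V :=
  ρ g * X * ρ g⁻¹

theorem rr (ρ : G →* Module.End k V) (g : G) : ρ g * ρ g⁻¹ = 1 := by
  rw [← map_mul, mul_inv_cancel, map_one]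

theorem rr' (ρ : G →* Module.End k V) (g : G) : ρ g⁻¹ * ρ g = 1 := by
  rw [← map_mul, inv_mul_cancel, map_one]

variable {ρ : G →* Module.End k V}

theorem cj_mul (g : G) (X Y : Module.End k V) : cj ρ g (X * Y) = cj ρ g X * cj ρ g Y := by
  unfold cj
  calc ρ g * (X * Y) * ρ g⁻¹ = ρ g * X * (1 * (Y * ρ g⁻¹)) := by
        rw [one_mul]; simp only [mul_assoc]
    _ = _ := by rw [← rr' ρ g]; simp only [mul_assoc]

theorem cj_one (g : G) : cj ρ g 1 = 1 := by
  unfold cj; rw [mul_one, rr]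

theorem cj_smul (g : G) (c : k) (X : Module.End k V) : cj ρ g (c • X) = c • cj ρ g X := by
  unfold cj; rw [mul_smul_comm, smul_mul_assoc]

theorem cj_pow (g : G) (X : Module.End k V) (m : ℕ) : cj ρ g (X ^ m) = cj ρ g X ^ m := by
  induction m with
  | zero => rw [pow_zero, pow_zero, cj_one]
  | succ m ih => rw [pow_succ, cj_mul, ih, pow_succ]

theorem cj_comp (g h : G) (X : Module.End k V) : cj ρ (g * h) X = cj ρ g (cj ρ h X) := by
  unfold cj
  rw [map_mul, mul_inv_rev, map_mul]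
  simp only [mul_assoc]

theorem cj_rho (g h : G) : cj ρ g (ρ h) = ρ (g * h * g⁻¹) := by
  unfold cj; rw [map_mul, map_mul]

theorem cj_one_left (X : Module.End k V) : cj ρ 1 X = X := by
  unfold cj; rw [inv_one, map_one, one_mul, mul_one]

theorem cj_inv (g : G) (X : Module.End k V) : cj ρ g⁻¹ (cj ρ g X) = X := by
  rw [← cj_comp, inv_mul_cancel, cj_one_left]

theorem cj_inv' (g : G) (X : Module.End k V) : cj ρ g (cj ρ g⁻¹ X) = X := by
  rw [← cj_comp, mul_inv_cancel, cj_one_left]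

theorem scal_eq (hz : Scal f ρ) {z : G} (h : f z = 1) : ∃ c : k, ρ z = c • 1 := by
  obtain ⟨c, hc⟩ := hz z h
  exact ⟨c, by ext v; rw [hc]; rfl⟩

theorem scal_eq' [Nontrivial V] (hz : Scal f ρ) {z : G} (h : f z = 1) :
    ∃ c : k, c ≠ 0 ∧ ρ z = c • 1 := by
  obtain ⟨c, hc⟩ := scal_eq hz h
  refine ⟨c, ?_, hc⟩
  rintro rfl
  have h1 := rr ρ z
  rw [hc, zero_smul, zero_mul] at h1
  exact zero_ne_one h1

theorem cj_ker (hz : Scal f ρ) {z : G} (h : f z = 1) (X : Module.End k V) : cj ρ z X = X := by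
  obtain ⟨c, hc⟩ := scal_eq hz h
  have h1 := rr ρ z
  unfold cj
  rw [hc] at h1 ⊢
  rw [smul_mul_assoc, one_mul] at h1 ⊢
  have h2 : c • X * ρ z⁻¹ = X * (c • ρ z⁻¹) := by rw [smul_mul_assoc, mul_smul_comm]
  rw [h2, h1, mul_one]

theorem cj_congr (hz : Scal f ρ) {g h : G} (e : f g = f h) (X : Module.End k V) :
    cj ρ g X = cj ρ h X := by
  have h1 : f (h⁻¹ * g) = 1 := by rw [map_mul, map_inv, e]; simp
  have h2 : g = h * (h⁻¹ * g) := by group
  rw [h2, cj_comp, cj_ker hz h1]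

/-- `X` is an operator over `a`. -/
def Lft (f : G →* alternatingGroup α) (ρ : G →* Module.End k V) (a : alternatingGroup α)
    (X : Module.End k V) : Prop := ∃ g, f g = a ∧ ∃ c : k, c ≠ 0 ∧ X = c • ρ g

theorem Lft.rho (g : G) : Lft f ρ (f g) (ρ g) := ⟨g, rfl, 1, one_ne_zero, by rw [one_smul]⟩

theorem Lft.mul {a b : alternatingGroup α} {X Y : Module.End k V} (hX : Lft f ρ a X)
    (hY : Lft f ρ b Y) : Lft f ρ (a * b) (X * Y) := by
  obtain ⟨g, rfl, c, hc, rfl⟩ := hX
  obtain ⟨h, rfl, d, hd, rfl⟩ := hY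
  exact ⟨g * h, map_mul f g h, c * d, mul_ne_zero hc hd, by
    rw [map_mul, smul_mul_assoc, mul_smul_comm, smul_smul]⟩

theorem Lft.one : Lft f ρ 1 1 := ⟨1, map_one f, 1, one_ne_zero, by rw [map_one, one_smul]⟩

theorem Lft.pow {a : alternatingGroup α} {X : Module.End k V} (hX : Lft f ρ a X) (m : ℕ) :
    Lft f ρ (a ^ m) (X ^ m) := by
  induction m with
  | zero => rw [pow_zero, pow_zero]; exact Lft.one
  | succ m ih => rw [pow_succ, pow_succ]; exact ih.mul hX

theorem Lft.cj {a : alternatingGroup α} {X : Module.End k V} (hX : Lft f ρ a X) (h : G) :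
    Lft f ρ (f h * a * (f h)⁻¹) (cj ρ h X) := by
  obtain ⟨g, rfl, c, hc, rfl⟩ := hX
  exact ⟨h * g * h⁻¹, by rw [map_mul, map_mul, map_inv], c, hc, by rw [cj_smul, cj_rho]⟩

theorem Lft.smul {a : alternatingGroup α} {X : Module.End k V} (hX : Lft f ρ a X) {c : k}
    (hc : c ≠ 0) : Lft f ρ a (c • X) := by
  obtain ⟨g, rfl, d, hd, rfl⟩ := hX
  exact ⟨g, rfl, c * d, mul_ne_zero hc hd, by rw [smul_smul]⟩

theorem Lft.unique [Nontrivial V] (hz : Scal f ρ) {a : alternatingGroup α}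
    {X Y : Module.End k V} (hX : Lft f ρ a X) (hY : Lft f ρ a Y) : ∃ u : k, u ≠ 0 ∧ Y = u • X := by
  obtain ⟨g, e1, c, hc, rfl⟩ := hX
  obtain ⟨h, e2, d, hd, rfl⟩ := hY
  obtain ⟨u, hu, hu2⟩ := scal_eq' hz (z := g⁻¹ * h) (by rw [map_mul, map_inv, e1, e2]; simp)
  refine ⟨d * u * c⁻¹, mul_ne_zero (mul_ne_zero hd hu) (inv_ne_zero hc), ?_⟩
  have h1 : ρ h = u • ρ g := by
    have : h = g * (g⁻¹ * h) := by group
    rw [this, map_mul, hu2, mul_smul_comm, mul_one]
  rw [h1, smul_smul, smul_smul, inv_mul_cancel_right₀ hc]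

theorem Lft.ne_zero [Nontrivial V] {a : alternatingGroup α} {X : Module.End k V}
    (hX : Lft f ρ a X) : X ≠ 0 := by
  obtain ⟨g, rfl, c, hc, rfl⟩ := hX
  intro h
  rcases smul_eq_zero.mp h with h | h
  · exact hc h
  · have h1 := rr ρ g
    rw [h, zero_mul] at h1
    exact zero_ne_one h1

theorem Lft.scalar_of_one [Nontrivial V] (hz : Scal f ρ) {X : Module.End k V}
    (hX : Lft f ρ 1 X) : ∃ u : k, u ≠ 0 ∧ X = u • 1 := Lft.unique hz Lft.one hX

theorem smul_one_inj [Nontrivial V] {a b : k} (h : a • (1 : Module.End k V) = b • 1) : a = b := by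
  have h1 : (a - b) • (1 : Module.End k V) = 0 := by rw [sub_smul, h, sub_self]
  rcases smul_eq_zero.mp h1 with h2 | h2
  · exact sub_eq_zero.mp h2
  · exact absurd h2 one_ne_zero

/-- canonical scaling. -/
def Can (ρ : G →* Module.End k V) (t : G) (m : ℕ) (X : Module.End k V) : Prop :=
  X ^ m = 1 ∧ cj ρ t X * X = 1

theorem Can.unique [Nontrivial V] (hz : Scal f ρ) {t : G} {m : ℕ} (hm : Odd m)
    {a : alternatingGroup α} {X Y : Module.End k V} (hX : Lft f ρ a X) (hY : Lft f ρ a Y)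
    (cX : Can ρ t m X) (cY : Can ρ t m Y) : X = Y := by
  obtain ⟨u, hu, rfl⟩ := Lft.unique hz hX hY
  have h1 : u ^ m = 1 := by
    have := cY.1
    rw [smul_pow, cX.1] at this
    exact smul_one_inj (by rw [this, one_smul])
  have h2 : u * u = 1 := by
    have := cY.2
    rw [cj_smul, smul_mul_assoc, mul_smul_comm, smul_smul, cX.2] at this
    exact smul_one_inj (by rw [this, one_smul])
  obtain ⟨j, rfl⟩ := hm
  have h3 : u = 1 := by
    rw [pow_succ, pow_mul, pow_two, h2, one_pow, one_mul] at h1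
    exact h1
  rw [h3, one_smul]

theorem Can.cj (hz : Scal f ρ) {t h : G} {m : ℕ} (hc : f h * f t = f t * f h)
    {X : Module.End k V} (cX : Can ρ t m X) : Can ρ t m (cj ρ h X) := by
  refine ⟨by rw [← cj_pow, cX.1, cj_one], ?_⟩
  rw [← cj_comp, cj_congr hz (g := t * h) (h := h * t) (by rw [map_mul, map_mul, hc]), cj_comp,
    ← cj_mul, cX.2, cj_one]

theorem Can.mul {t : G} {m : ℕ} {X Y : Module.End k V} (hXY : X * Y = Y * X)
    (cX : Can ρ t m X) (cY : Can ρ t m Y) : Can ρ t m (X * Y) := by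
  refine ⟨?_, ?_⟩
  · rw [Commute.mul_pow hXY, cX.1, cY.1, one_mul]
  · rw [cj_mul]
    calc AltS.cj ρ t X * AltS.cj ρ t Y * (X * Y)
        = AltS.cj ρ t X * ((AltS.cj ρ t Y * Y) * X) := by rw [hXY]; simp only [mul_assoc]
      _ = 1 := by rw [cY.2, one_mul, cX.2]

theorem Can.one {t : G} {m : ℕ} : Can ρ t m 1 := ⟨one_pow m, by rw [cj_one, one_mul]⟩

theorem Can.pow {t : G} {m : ℕ} {X : Module.End k V} (cX : Can ρ t m X) (i : ℕ) :
    Can ρ t m (X ^ i) := by
  induction i with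
  | zero => rw [pow_zero]; exact Can.one
  | succ i ih => rw [pow_succ]; exact ih.mul (Commute.pow_self X i) cX

theorem Can.exists [IsAlgClosed k] [Nontrivial V] [FiniteDimensional k V] (hf : Cov f) (hz : Scal f ρ) {t : G} {m : ℕ}
    (hm : Odd m) {a : alternatingGroup α} (ham : a ^ m = 1) (hta : f t * a * (f t)⁻¹ = a⁻¹) :
    ∃ X, Lft f ρ a X ∧ Can ρ t m X := by
  obtain ⟨g, rfl⟩ := hf.surj a
  have hL : Lft f ρ (f g) (ρ g) := Lft.rho g
  have h1 : Lft f ρ 1 (AltS.cj ρ t (ρ g) * ρ g) := by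
    have := (hL.cj t).mul hL
    rwa [hta, inv_mul_cancel] at this
  obtain ⟨ζ, hζ, e1⟩ := Lft.scalar_of_one hz h1
  obtain ⟨s, hs⟩ := IsAlgClosed.exists_pow_nat_eq (ζ⁻¹) (n := 2) (by norm_num)
  have hs0 : s ≠ 0 := by
    rintro rfl
    rw [zero_pow (by norm_num)] at hs
    exact inv_ne_zero hζ hs.symm
  have e2 : ∀ s : k, s ^ 2 = ζ⁻¹ → AltS.cj ρ t (s • ρ g) * (s • ρ g) = 1 := by
    intro s hs
    rw [cj_smul, smul_mul_assoc, mul_smul_comm, smul_smul, e1, smul_smul, ← pow_two, hs,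
      inv_mul_cancel₀ hζ, one_smul]
  have h2 := (hL.smul hs0).pow m
  rw [ham] at h2
  obtain ⟨δ, hδ, e3⟩ := Lft.scalar_of_one hz h2
  have hδ2 : δ * δ = 1 := by
    have h3 : (AltS.cj ρ t (s • ρ g) * (s • ρ g)) ^ m = 1 := by rw [e2 s hs, one_pow]
    have hcomm : Commute (AltS.cj ρ t (s • ρ g)) (s • ρ g) := by
      have h5 := e2 s hs
      have h6 : (s • ρ g) * AltS.cj ρ t (s • ρ g) = 1 :=
        mul_eq_one_comm.mp h5
      exact h5.trans h6.symm
    rw [hcomm.mul_pow, ← cj_pow, e3, cj_smul, cj_one, smul_mul_assoc, one_mul, smul_smul] at h3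
    exact smul_one_inj (by rw [h3, one_smul])
  rcases mul_self_eq_one_iff.mp hδ2 with h | h
  · exact ⟨s • ρ g, hL.smul hs0, by rw [e3, h, one_smul], e2 s hs⟩
  · refine ⟨(-s) • ρ g, hL.smul (neg_ne_zero.mpr hs0), ?_, e2 (-s) (by rw [neg_sq, hs])⟩
    rw [neg_smul, hm.neg_pow, e3, h, neg_smul, neg_neg, one_smul]

/-- operators over commuting elements commute in the presence of an inverting element. -/
theorem comm_of_inv [Nontrivial V] (hz : Scal f ρ) {s : G} {m : ℕ} (hm : Odd m)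
    {a b : alternatingGroup α} (hab : a * b = b * a) (ham : a ^ m = 1)
    (hsa : f s * a * (f s)⁻¹ = a⁻¹) (hsb : f s * b * (f s)⁻¹ = b) {X Y : Module.End k V}
    (hX : Lft f ρ a X) (hY : Lft f ρ b Y) : X * Y = Y * X := by
  have h1 : Lft f ρ (a * b) (X * Y) := hX.mul hY
  have h2 : Lft f ρ (a * b) (Y * X) := by rw [hab]; exact hY.mul hX
  obtain ⟨β, hβ, e1⟩ := Lft.unique hz h2 h1
  have h3 : Lft f ρ 1 (cj ρ s X * X) := by
    have := (hX.cj s).mul hX
    rwa [hsa, inv_mul_cancel] at this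
  obtain ⟨c, hc, e2⟩ := Lft.scalar_of_one hz h3
  have h4 := hY.cj s
  rw [hsb] at h4
  obtain ⟨d, hd, e3⟩ := Lft.unique hz hY h4
  have e4 : cj ρ s X * Y = β • (Y * cj ρ s X) := by
    have := congrArg (cj ρ s) e1
    rw [cj_mul, cj_smul, cj_mul, e3, mul_smul_comm, smul_mul_assoc, smul_smul, mul_comm β d,
      ← smul_smul] at this
    exact smul_right_injective _ hd this
  have hY0 := hY.ne_zero
  have e5 : c • Y = (β * β * c) • Y := by
    calc c • Y = (cj ρ s X * X) * Y := by rw [e2, smul_mul_assoc, one_mul]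
      _ = cj ρ s X * (X * Y) := by rw [mul_assoc]
      _ = β • ((cj ρ s X * Y) * X) := by rw [e1, mul_smul_comm, mul_assoc]
      _ = β • (β • (Y * (cj ρ s X * X))) := by rw [e4, smul_mul_assoc, mul_assoc]
      _ = (β * β * c) • Y := by rw [e2, mul_smul_comm, mul_one, smul_smul, smul_smul]
  have e6 : c = β * β * c := by
    have h7 : (c - β * β * c) • Y = 0 := by rw [sub_smul, ← e5, sub_self]
    rcases smul_eq_zero.mp h7 with h | h
    · exact sub_eq_zero.mp h
    · exact absurd h hY0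
  have e7 : β * β = 1 := by
    have : (β * β) * c = 1 * c := by rw [← e6, one_mul]
    exact mul_right_cancel₀ hc this
  have e8 : ∀ i : ℕ, X ^ i * Y = (β ^ i) • (Y * X ^ i) := by
    intro i
    induction i with
    | zero => rw [pow_zero, pow_zero, one_mul, mul_one, one_smul]
    | succ i ih =>
      rw [pow_succ' X, mul_assoc, ih, mul_smul_comm, ← mul_assoc, e1, smul_mul_assoc, smul_smul,
        mul_assoc, ← pow_succ' X, ← pow_succ]
  obtain ⟨δ, hδ, e9⟩ := Lft.scalar_of_one hz (ham ▸ hX.pow m)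
  have e10 := e8 m
  rw [e9, smul_mul_assoc, one_mul, mul_smul_comm, mul_one, smul_smul] at e10
  have e11 : β ^ m = 1 := by
    have h7 : (δ - β ^ m * δ) • Y = 0 := by rw [sub_smul, ← e10, sub_self]
    rcases smul_eq_zero.mp h7 with h | h
    · have h8 : β ^ m * δ = 1 * δ := by rw [one_mul]; exact (sub_eq_zero.mp h).symm
      exact mul_right_cancel₀ hδ h8
    · exact absurd h hY0
  obtain ⟨j, rfl⟩ := hm
  rw [pow_succ, pow_mul, pow_two, e7, one_pow, one_mul] at e11
  rw [e1, e11, one_smul]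

/-- unipotent operators of order prime to the characteristic are trivial. -/
theorem fix_of_fix2 {X : Module.End k V} {m : ℕ} (hX : X ^ m = 1) (hm : (m : k) ≠ 0) {w : V}
    (h : X (X w - w) = X w - w) : X w = w := by
  have h1 : ∀ i : ℕ, (X ^ i) w = w + (i : k) • (X w - w) := by
    intro i
    induction i with
    | zero => simp
    | succ i ih =>
      rw [pow_succ', Module.End.mul_apply, ih, map_add, map_smul, h]
      push_cast
      rw [add_smul, one_smul]
      abel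
  have h2 := h1 m
  rw [hX, Module.End.one_apply] at h2
  have h3 : (m : k) • (X w - w) = 0 := by
    have := h2.symm
    rwa [add_eq_left] at this
  rcases smul_eq_zero.mp h3 with h | h
  · exact absurd h hm
  · exact sub_eq_zero.mp h

end Cfsg.Agent.AltS
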