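import Cfsg.Agent.AltS.NB

set_option autoImplicit false

namespace Cfsg.Agent.AltS

open Module Finset

variable {k V G α : Type*} [Field k] [AddCommGroup V] [Module k V] [Group G]
  [Fintype α] [DecidableEq α] {f : G →* alternatingGroup α}

/-- the contragredient representation. -/
def dualRep (ρ : G →* Module.End k V) : G →* Module.End k (Module.Dual k V) where
  toFun g := (ρ g⁻¹).dualMap
  map_one' := by
    ext φ v
    simp
  map_mul' a b := by
    ext φ v
    simp [mul_inv_rev]

theorem dualRep_apply (ρ : G →* Module.End k V) (g : G) (φ : Module.Dual k V) (v : V) :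
    dualRep ρ g φ v = φ (ρ g⁻¹ v) := rfl

theorem scal_dual {ρ : G →* Module.End k V} (hz : Scal f ρ) : Scal f (dualRep ρ) := by
  intro z hz1
  obtain ⟨c, hc⟩ := hz z⁻¹ (by rw [map_inv, hz1, inv_one])
  refine ⟨c, fun φ => ?_⟩
  ext v
  rw [dualRep_apply, hc]
  simp

theorem irr_dual [FiniteDimensional k V] {ρ : G →* Module.End k V} {H : Subgroup G}
    (h : IrrOn ρ H) : IrrOn (dualRep ρ) H := by
  intro W hW
  have hinv : Inv ρ H W.dualCoannihilator := by
    intro g hg u hu
    rw [Submodule.mem_dualCoannihilator] at hu ⊢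
    intro φ hφ
    have h1 := hW g⁻¹ (H.inv_mem hg) φ hφ
    have h2 := hu _ h1
    rwa [dualRep_apply, inv_inv] at h2
  have hW2 : W.dualCoannihilator.dualAnnihilator = W :=
    Subspace.dualCoannihilator_dualAnnihilator_eq
  rcases h _ hinv with e | e
  · right
    rw [← hW2, e, Submodule.dualAnnihilator_bot]
  · left
    rw [← hW2, e, Submodule.dualAnnihilator_top]

theorem finrank_le_one_of_scalar [FiniteDimensional k V] {ρ : G →* Module.End k V}
    (hirr : IrrOn ρ ⊤) (h : ∀ g, ∃ c : k, ∀ v, ρ g v = c • v) : finrank k V ≤ 1 := by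
  rcases subsingleton_or_nontrivial V with hV | hV
  · rw [finrank_zero_of_subsingleton]; omega
  · obtain ⟨v, hv⟩ := exists_ne (0 : V)
    have h1 : Inv ρ ⊤ (Submodule.span k {v}) := by
      intro g _ u hu
      obtain ⟨c, hc⟩ := h g
      rw [hc]
      exact Submodule.smul_mem _ _ hu
    rcases hirr _ h1 with e | e
    · exact absurd (Submodule.span_singleton_eq_bot.mp e) hv
    · have h4 := finrank_span_le_card (R := k) ({v} : Set V)
      rw [e, finrank_top] at h4
      simpa using h4

/-- elements outside the centre of a cover do not act as scalars. -/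
theorem not_scalar [FiniteDimensional k V] (hf : Cov f) {ρ : G →* Module.End k V}
    (hα : 5 ≤ Fintype.card α) (hirr : IrrOn ρ ⊤) (h2 : 2 ≤ finrank k V) {x : G} (hx : f x ≠ 1) :
    ¬ ∃ c : k, ∀ v, ρ x v = c • v := by
  intro hc
  let N : Subgroup G :=
    { carrier := {g | ∃ c : k, ∀ v, ρ g v = c • v}
      one_mem' := ⟨1, fun v => by rw [rho_one_apply, one_smul]⟩
      mul_mem' := by
        rintro a b ⟨c, hc⟩ ⟨d, hd⟩
        exact ⟨c * d, fun v => by rw [rho_mul_apply, hd, hc, smul_smul]⟩
      inv_mem' := by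
        rintro a ⟨c, hc⟩
        have hc0 : c ≠ 0 := by
          rintro rfl
          have : Nontrivial V := Module.nontrivial_of_finrank_pos (R := k) (by omega)
          obtain ⟨v, hv⟩ := exists_ne (0 : V)
          exact rho_ne_zero ρ a hv (by rw [hc, zero_smul])
        refine ⟨c⁻¹, fun v => ?_⟩
        have h1 := hc (ρ a⁻¹ v)
        rw [rho_self_inv] at h1
        calc ρ a⁻¹ v = c⁻¹ • (c • ρ a⁻¹ v) := by rw [smul_smul, inv_mul_cancel₀ hc0, one_smul]
          _ = c⁻¹ • v := by rw [← h1] }
  have hN : N.Normal := by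
    constructor
    rintro a ⟨c, hc⟩ g
    refine ⟨c, fun v => ?_⟩
    rw [rho_mul_apply, rho_mul_apply, hc, map_smul, rho_self_inv]
  have htop := eq_top_of_normal hf
    (alternatingGroup.isSimpleGroup (by rw [Nat.card_eq_fintype_card]; exact hα)) N hN hc hx
  have := finrank_le_one_of_scalar hirr (fun g => by
    have : g ∈ N := by rw [htop]; trivial
    exact this)
  omega

theorem chain_bound [IsAlgClosed k] [FiniteDimensional k V] (hf : Cov f)
    {ρ : G →* Module.End k V} (hz : Scal f ρ) (hα : 10 ≤ Fintype.card α)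
    (hirr : IrrOn ρ ⊤) (h2 : 2 ≤ finrank k V)
    (star : ∀ s : Finset α, Fintype.card α ≤ s.card + 3 → s.card < Fintype.card α →
      ∀ U : Submodule k V, Inv ρ (Yc f (AS s)) U →
        (∀ g ∈ Yc f (AS s), ∀ u ∈ U, ρ g u = u) ∨ (∀ g ∈ Yc f (AS s), ∀ v, ρ g v - v ∈ U)) :
    dd k (Fintype.card α) ≤ finrank k V := by
  have : Nontrivial V := Module.nontrivial_of_finrank_pos (R := k) (by omega)
  obtain ⟨a1, h1⟩ : (univ : Finset α).Nonempty := by rw [← card_pos, card_univ]; omega
  have c1 : (univ.erase a1 : Finset α).card = Fintype.card α - 1 := by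
    rw [card_erase_of_mem h1, card_univ]
  obtain ⟨a2, ha2⟩ : (univ.erase a1 : Finset α).Nonempty := by rw [← card_pos]; omega
  have c2 : ((univ.erase a1).erase a2 : Finset α).card = Fintype.card α - 2 := by
    rw [card_erase_of_mem ha2, c1]; omega
  obtain ⟨a3, ha3⟩ : ((univ.erase a1).erase a2 : Finset α).Nonempty := by
    rw [← card_pos]; omega
  have c3 : (((univ.erase a1).erase a2).erase a3 : Finset α).card = Fintype.card α - 3 := by
    rw [card_erase_of_mem ha3, c2]; omega
  have hn3 : ¬ IrrOn ρ (Yc f (AS (((univ.erase a1).erase a2).erase a3 : Finset α))) := by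
    intro h
    have h12 : a2 ≠ a1 := (mem_erase.mp ha2).1
    have h23 : a3 ≠ a2 := (mem_erase.mp ha3).1
    have h13 : a3 ≠ a1 := (mem_erase.mp (mem_erase.mp ha3).2).1
    obtain ⟨c, e1, e2, e3, e4⟩ := exists_c3 h12.symm h23.symm h13.symm
    obtain ⟨x, hx⟩ := hf.surj c
    refine not_scalar hf (by omega) hirr h2 (x := x) ?_ ?_
    · rw [hx]
      rintro rfl
      exact h12 e1.symm
    · refine schur ρ _ h (ρ x) ?_
      intro g hg v
      rw [← rho_mul_apply, ← rho_mul_apply]
      congr 2
      refine comm_Yc hf x (fun b hb => ?_) hg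
      rw [hx]
      refine comm_disj (s := {a1, a2, a3}) ?_ ?_ hb
      · rw [disjoint_left]
        intro m hm
        simp only [mem_insert, mem_singleton] at hm
        simp only [mem_erase, mem_univ, and_true, not_and_or, not_not]
        tauto
      · rw [mem_AS]
        intro i hi
        simp only [mem_insert, mem_singleton, not_or] at hi
        exact e4 i hi.1 hi.2.1 hi.2.2
  obtain ⟨T, o, hT, ho, hTi, hTn⟩ : ∃ (T : Finset α) (o : α), Fintype.card α ≤ T.card + 2 ∧
      o ∈ T ∧ IrrOn ρ (Yc f (AS T)) ∧ ¬ IrrOn ρ (Yc f (AS (T.erase o))) := by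
    by_cases i1 : IrrOn ρ (Yc f (AS (univ.erase a1 : Finset α)))
    · by_cases i2 : IrrOn ρ (Yc f (AS ((univ.erase a1).erase a2 : Finset α)))
      · exact ⟨(univ.erase a1).erase a2, a3, by omega, ha3, i2, hn3⟩
      · exact ⟨univ.erase a1, a2, by omega, ha2, i1, i2⟩
    · refine ⟨univ, a1, by rw [card_univ]; omega, h1, ?_, i1⟩
      rw [AS_univ, Yc_top hf]
      exact hirr
  unfold IrrOn at hTn
  push Not at hTn
  obtain ⟨U, hU, hUb, hUt⟩ := hTn
  have hTe : (T.erase o).card = T.card - 1 := card_erase_of_mem ho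
  have hTu : T.card ≤ Fintype.card α := card_le_univ T
  rcases star (T.erase o) (by omega) (by omega) U hU with h | h
  · obtain ⟨v, hv, hv0⟩ := Submodule.exists_mem_ne_zero_of_ne_bot hUb
    obtain ⟨u, hu, huo⟩ := exists_perm_vectors hf hz (by omega) ho hv0 (fun g hg => h g hg v hv)
    exact nr_bound hf hz (by omega) hα hu hTi h2 ho huo
  · obtain ⟨φ, hφ, hφU⟩ := Submodule.exists_le_ker_of_lt_top U (lt_top_iff_ne_top.mpr hUt)
    obtain ⟨u, hu, huo⟩ := exists_perm_vectors hf (scal_dual hz) (T := T) (by omega) ho hφ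
      (fun g hg => by
        ext v
        rw [dualRep_apply]
        have h3 := hφU (h g⁻¹ (Subgroup.inv_mem _ hg) v)
        rw [LinearMap.mem_ker, map_sub] at h3
        exact sub_eq_zero.mp h3)
    have hd : finrank k (Module.Dual k V) = finrank k V := Subspace.dual_finrank_eq
    rw [← hd]
    exact nr_bound hf (scal_dual hz) (by omega) hα hu (irr_dual hTi) (by rw [hd]; exact h2) ho huo

end Cfsg.Agent.AltS
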