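import Mathlib

set_option autoImplicit false

open scoped commutatorElement

namespace Cfsg.Agent.AltS

section Gen
variable {G A : Type*} [Group G] [Group A]

/-- `f` is a perfect central extension. -/
structure Cov (f : G →* A) : Prop where
  surj : Function.Surjective f
  central : ∀ z, f z = 1 → ∀ g, z * g = g * z
  perf : ⁅(⊤ : Subgroup G), (⊤ : Subgroup G)⁆ = (⊤ : Subgroup G)

/-- the minimal subgroup over `B`. -/
def Yc (f : G →* A) (B : Subgroup A) : Subgroup G := ⁅B.comap f, B.comap f⁆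

theorem comm_central {z w : G} (hz : ∀ g, z * g = g * z) (hw : ∀ g, w * g = g * w) (a b : G) :
    ⁅a * z, b * w⁆ = ⁅a, b⁆ := by
  have h1 : a * z * (b * w) = a * b * (z * w) := by
    rw [mul_assoc, ← mul_assoc z b w, hz b]; group
  have h2 : (b * w) * (a * z) = b * a * (z * w) := by
    rw [mul_assoc, ← mul_assoc w a z, hw a, hz w]; group
  have h3 : ⁅a * z, b * w⁆ = (a * z * (b * w)) * ((b * w) * (a * z))⁻¹ := by
    rw [commutatorElement_def]; group
  rw [h3, h1, h2, commutatorElement_def]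
  group

variable {f : G →* A}

theorem Yc_le_of (hf : Cov f) {B : Subgroup A} {N : Subgroup G} (h : B ≤ N.map f) :
    Yc f B ≤ N := by
  rw [Yc, Subgroup.commutator_le]
  intro g1 h1 g2 h2
  obtain ⟨n1, hn1, e1⟩ := h (Subgroup.mem_comap.mp h1)
  obtain ⟨n2, hn2, e2⟩ := h (Subgroup.mem_comap.mp h2)
  have c1 : f (n1⁻¹ * g1) = 1 := by rw [map_mul, map_inv]; rw [e1]; simp
  have c2 : f (n2⁻¹ * g2) = 1 := by rw [map_mul, map_inv]; rw [e2]; simp
  have := comm_central (hf.central _ c1) (hf.central _ c2) n1 n2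
  rw [mul_inv_cancel_left, mul_inv_cancel_left] at this
  rw [this, commutatorElement_def]
  exact N.mul_mem (N.mul_mem (N.mul_mem hn1 hn2) (N.inv_mem hn1)) (N.inv_mem hn2)

theorem Yc_mono {B B' : Subgroup A} (h : B ≤ B') : Yc f B ≤ Yc f B' :=
  Subgroup.commutator_mono (Subgroup.comap_mono h) (Subgroup.comap_mono h)

theorem map_Yc (hf : Cov f) {B : Subgroup A} (hB : ⁅B, B⁆ = B) : (Yc f B).map f = B := by
  rw [Yc, Subgroup.map_commutator, Subgroup.map_comap_eq_self_of_surjective hf.surj, hB]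

theorem Yc_perf (hf : Cov f) {B : Subgroup A} (hB : ⁅B, B⁆ = B) :
    ⁅Yc f B, Yc f B⁆ = Yc f B := by
  apply le_antisymm
  · rw [Subgroup.commutator_le]
    intro a ha b hb
    rw [commutatorElement_def]
    exact (Yc f B).mul_mem ((Yc f B).mul_mem ((Yc f B).mul_mem ha hb) ((Yc f B).inv_mem ha))
      ((Yc f B).inv_mem hb)
  · apply Yc_le_of hf
    rw [Subgroup.map_commutator, map_Yc hf hB, hB]

theorem Yc_le_comap {B : Subgroup A} : Yc f B ≤ B.comap f := by
  rw [Yc, Subgroup.commutator_le]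
  intro a ha b hb
  rw [commutatorElement_def]
  exact (B.comap f).mul_mem ((B.comap f).mul_mem ((B.comap f).mul_mem ha hb)
    ((B.comap f).inv_mem ha)) ((B.comap f).inv_mem hb)

theorem f_mem_of_Yc {B : Subgroup A} {y : G} (hy : y ∈ Yc f B) : f y ∈ B := Yc_le_comap hy

theorem Yc_top (hf : Cov f) : Yc f ⊤ = ⊤ := by
  rw [Yc, Subgroup.comap_top, hf.perf]

theorem exists_lift (hf : Cov f) {B : Subgroup A} (hB : ⁅B, B⁆ = B) {b : A} (hb : b ∈ B) :
    ∃ y ∈ Yc f B, f y = b := by
  have : b ∈ (Yc f B).map f := by rw [map_Yc hf hB]; exact hb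
  obtain ⟨y, hy, e⟩ := this
  exact ⟨y, hy, e⟩

theorem conj_mem_Yc {B B' : Subgroup A} (g : G) (h : ∀ b ∈ B, f g * b * (f g)⁻¹ ∈ B') {x : G}
    (hx : x ∈ Yc f B) : g * x * g⁻¹ ∈ Yc f B' := by
  have : Yc f B ≤ (Yc f B').comap (MulAut.conj g).toMonoidHom := by
    rw [Yc, Subgroup.commutator_le]
    intro a ha b hb
    rw [Subgroup.mem_comap, map_commutatorElement]
    apply Subgroup.commutator_mem_commutator
    · rw [Subgroup.mem_comap] at ha ⊢
      simpa using h _ ha
    · rw [Subgroup.mem_comap] at hb ⊢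
      simpa using h _ hb
  have h2 := this hx
  rw [Subgroup.mem_comap] at h2
  simpa using h2

theorem comm_Yc (hf : Cov f) {B : Subgroup A} (g : G) (h : ∀ b ∈ B, f g * b = b * f g) {x : G}
    (hx : x ∈ Yc f B) : g * x = x * g := by
  have : Yc f B ≤ Subgroup.centralizer {g} := by
    rw [Yc, Subgroup.commutator_le]
    intro a ha b hb
    rw [Subgroup.mem_centralizer_iff]
    rintro _ rfl
    rename_i g
    have key : ∀ a : G, f a ∈ B → f (a⁻¹ * (g * a * g⁻¹)) = 1 := by
      intro a ha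
      rw [map_mul, map_mul, map_mul, map_inv, map_inv, h _ ha]
      group
    have e1 : g * a * g⁻¹ = a * (a⁻¹ * (g * a * g⁻¹)) := by group
    have e2 : g * b * g⁻¹ = b * (b⁻¹ * (g * b * g⁻¹)) := by group
    have e3 : g * ⁅a, b⁆ * g⁻¹ = ⁅a, b⁆ := by
      have : g * ⁅a, b⁆ * g⁻¹ = ⁅g * a * g⁻¹, g * b * g⁻¹⁆ := by
        rw [commutatorElement_def, commutatorElement_def]; group
      rw [this, e1, e2]
      exact comm_central (hf.central _ (key a ha)) (hf.central _ (key b hb)) a b
    calc g * ⁅a, b⁆ = (g * ⁅a, b⁆ * g⁻¹) * g := by group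
      _ = ⁅a, b⁆ * g := by rw [e3]
  exact Subgroup.mem_centralizer_iff.mp (this hx) g rfl

/-- normal subgroups of covers of simple groups. -/
theorem eq_top_of_normal (hf : Cov f) (hA : IsSimpleGroup A) (N : Subgroup G) (hN : N.Normal) {g : G}
    (hg : g ∈ N) (hg1 : f g ≠ 1) : N = ⊤ := by
  have h1 : (N.map f).Normal := hN.map f hf.surj
  rcases hA.eq_bot_or_eq_top_of_normal _ h1 with h | h
  · exact absurd ((Subgroup.mem_bot).mp (h ▸ Subgroup.mem_map_of_mem f hg)) hg1
  · rw [← top_le_iff, ← Yc_top hf]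
    exact Yc_le_of hf h.ge

end Gen

section Alt
variable {α : Type*} [Fintype α] [DecidableEq α]

/-- the alternating group on a subset. -/
abbrev AS (s : Finset α) : Subgroup (alternatingGroup α) := (alternatingGroup.ofSubtype s).range

theorem mem_AS {s : Finset α} {g : alternatingGroup α} : g ∈ AS s ↔ ∀ i, i ∉ s → g.1 i = i := by
  rw [alternatingGroup.mem_range_ofSubtype_iff]
  constructor
  · intro h i hi
    by_contra hne
    exact hi (h (Equiv.Perm.mem_support.mpr hne))
  · intro h i hi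
    by_contra hne
    exact (Equiv.Perm.mem_support.mp hi) (h i hne)

theorem AS_mono {s t : Finset α} (h : s ⊆ t) : AS s ≤ AS t := fun _ hg =>
  mem_AS.mpr fun i hi => mem_AS.mp hg i fun hi' => hi (h hi')

theorem AS_univ : AS (Finset.univ : Finset α) = ⊤ := by
  rw [eq_top_iff]
  intro g _
  exact mem_AS.mpr fun i hi => absurd (Finset.mem_univ i) hi

theorem AS_perf {s : Finset α} (hs : 5 ≤ s.card) : ⁅AS s, AS s⁆ = AS s := by
  have h1 : commutator (alternatingGroup s) = ⊤ :=
    commutator_alternatingGroup_eq_top (by simpa using hs)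
  rw [AS, MonoidHom.range_eq_map, ← Subgroup.map_commutator, ← commutator_def, h1]

theorem AS_simple {s : Finset α} (hs : 5 ≤ s.card) {K : Subgroup (alternatingGroup α)}
    (hn : ∀ a ∈ AS s, ∀ x ∈ K, a * x * a⁻¹ ∈ K) {x : alternatingGroup α} (hx : x ∈ K)
    (hxs : x ∈ AS s) (hx1 : x ≠ 1) : AS s ≤ K := by
  have hsim : IsSimpleGroup (alternatingGroup s) :=
    alternatingGroup.isSimpleGroup (by simpa using hs)
  have hN : (K.comap (alternatingGroup.ofSubtype s)).Normal := by
    constructor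
    intro y hy g
    rw [Subgroup.mem_comap] at hy ⊢
    rw [map_mul, map_mul, map_inv]
    exact hn _ ⟨g, rfl⟩ _ hy
  rcases hsim.eq_bot_or_eq_top_of_normal _ hN with h | h
  · obtain ⟨y, rfl⟩ := hxs
    have : y ∈ K.comap (alternatingGroup.ofSubtype s) := hx
    rw [h, Subgroup.mem_bot] at this
    exact absurd (by rw [this, map_one]) hx1
  · rintro _ ⟨y, rfl⟩
    have : y ∈ K.comap (alternatingGroup.ofSubtype s) := by rw [h]; trivial
    exact this

theorem exists_c3 {a b c : α} (hab : a ≠ b) (hbc : b ≠ c) (hac : a ≠ c) :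
    ∃ g : alternatingGroup α, g.1 a = b ∧ g.1 b = c ∧ g.1 c = a ∧
      ∀ i, i ≠ a → i ≠ b → i ≠ c → g.1 i = i := by
  refine ⟨⟨Equiv.swap a b * Equiv.swap b c, ?_⟩, ?_, ?_, ?_, ?_⟩
  · rw [Equiv.Perm.mem_alternatingGroup, map_mul, Equiv.Perm.sign_swap hab,
      Equiv.Perm.sign_swap hbc]
    simp
  · simp only [Equiv.Perm.mul_apply]
    rw [Equiv.swap_apply_of_ne_of_ne hab hac, Equiv.swap_apply_left]
  · simp only [Equiv.Perm.mul_apply]
    rw [Equiv.swap_apply_left, Equiv.swap_apply_of_ne_of_ne hac.symm hbc.symm]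
  · simp only [Equiv.Perm.mul_apply]
    rw [Equiv.swap_apply_right, Equiv.swap_apply_right]
  · intro i h1 h2 h3
    simp only [Equiv.Perm.mul_apply]
    rw [Equiv.swap_apply_of_ne_of_ne h2 h3, Equiv.swap_apply_of_ne_of_ne h1 h2]

/-- an even permutation supported in `s` moving `a` to `b`. -/
theorem exists_move {s : Finset α} (hs : 3 ≤ s.card) {a b : α} (ha : a ∈ s) (hb : b ∈ s) :
    ∃ g ∈ AS s, g.1 a = b := by
  rcases eq_or_ne a b with rfl | hab
  · exact ⟨1, Subgroup.one_mem _, rfl⟩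
  · obtain ⟨c, hc, hca, hcb⟩ : ∃ c ∈ s, c ≠ a ∧ c ≠ b := by
      by_contra hcon
      push Not at hcon
      have : s ⊆ {a, b} := by
        intro x hx
        rcases eq_or_ne x a with rfl | h
        · simp
        · simp [hcon x hx h]
      have h2 := Finset.card_le_card this
      have h3 := Finset.card_le_two (a := a) (b := b)
      omega
    obtain ⟨g, g1, g2, g3, g4⟩ := exists_c3 hab hcb.symm hca.symm
    exact ⟨g, mem_AS.mpr fun i hi => g4 i (fun e => hi (e ▸ ha)) (fun e => hi (e ▸ hb))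
      (fun e => hi (e ▸ hc)), g1⟩

theorem gen_AS {s : Finset α} (hs : 4 ≤ s.card) {a : α} (ha : a ∈ s)
    {X : Subgroup (alternatingGroup α)} (h1 : AS (s.erase a) ≤ X) {x : alternatingGroup α}
    (hx : x ∈ X) (hxs : x ∈ AS s) (hxa : x.1 a ≠ a) : AS s ≤ X := by
  have hxb : x.1 a ∈ s := by
    by_contra h
    have := mem_AS.mp hxs _ h
    exact hxa (x.1.injective this)
  have key : ∀ c ∈ s, ∃ y ∈ X, y ∈ AS s ∧ y.1 a = c := by
    intro c hc
    rcases eq_or_ne c a with rfl | hca
    · exact ⟨1, Subgroup.one_mem _, Subgroup.one_mem _, rfl⟩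
    · obtain ⟨h, hh, he⟩ := exists_move (s := s.erase a) (by rw [Finset.card_erase_of_mem ha]; omega)
        (Finset.mem_erase.mpr ⟨hxa, hxb⟩) (Finset.mem_erase.mpr ⟨hca, hc⟩)
      exact ⟨h * x, X.mul_mem (h1 hh) hx, Subgroup.mul_mem _ (AS_mono (Finset.erase_subset _ _) hh) hxs,
        by simpa using he⟩
  intro g hg
  have hga : g.1 a ∈ s := by
    by_contra h
    have h2 := mem_AS.mp hg _ h
    exact h (by rw [g.1.injective h2]; exact ha)
  obtain ⟨y, hy, hys, hya⟩ := key _ hga
  have : y⁻¹ * g ∈ X := by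
    apply h1
    rw [mem_AS]
    intro i hi
    by_cases his : i ∈ s
    · have : i = a := by
        by_contra hne
        exact hi (Finset.mem_erase.mpr ⟨hne, his⟩)
      subst this
      change (y.1)⁻¹ (g.1 i) = i
      rw [← hya]
      simp
    · exact mem_AS.mp (Subgroup.mul_mem _ (Subgroup.inv_mem _ hys) hg) i his
  have h3 := X.mul_mem hy this
  rwa [mul_inv_cancel_left] at h3

theorem comm_disj {s t : Finset α} (h : Disjoint s t) {g h' : alternatingGroup α} (hg : g ∈ AS s)
    (hh : h' ∈ AS t) : g * h' = h' * g := by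
  apply Subtype.ext
  ext i
  have hd : ∀ i, i ∉ s ∨ i ∉ t := by
    intro i
    by_contra hcon
    push Not at hcon
    exact Finset.disjoint_left.mp h hcon.1 hcon.2
  change g.1 (h'.1 i) = h'.1 (g.1 i)
  rcases hd i with hi | hi
  · rw [mem_AS.mp hg i hi]
    rcases hd (h'.1 i) with h2 | h2
    · exact mem_AS.mp hg _ h2
    · have := h'.1.injective (mem_AS.mp hh _ h2)
      rw [this, mem_AS.mp hg i hi]
  · rw [mem_AS.mp hh i hi]
    rcases hd (g.1 i) with h2 | h2
    · have := g.1.injective (mem_AS.mp hg _ h2)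
      rw [this, mem_AS.mp hh i hi]
    · exact (mem_AS.mp hh _ h2).symm

/-- covers restrict to covers of the alternating groups of subsets. -/
theorem exists_subcov {G : Type*} [Group G] {f : G →* alternatingGroup α} (hf : Cov f)
    {s : Finset α} (hs : 5 ≤ s.card) :
    ∃ fs : Yc f (AS s) →* alternatingGroup s, Cov fs ∧
      ∀ y, alternatingGroup.ofSubtype s (fs y) = f y := by
  let e := MonoidHom.ofInjective (alternatingGroup.ofSubtype_injective (s := s))
  let r : Yc f (AS s) →* AS s := (f.comp (Yc f (AS s)).subtype).codRestrict (AS s)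
    fun y => f_mem_of_Yc (f := f) y.2
  have he : ∀ y, alternatingGroup.ofSubtype s (e.symm (r y)) = f y := by
    intro y
    have h1 : ((e (e.symm (r y)) : AS s) : alternatingGroup α) = f y := by
      rw [MulEquiv.apply_symm_apply]; rfl
    rw [← h1]
    rfl
  refine ⟨e.symm.toMonoidHom.comp r, ⟨?_, ?_, ?_⟩, he⟩
  · intro a
    obtain ⟨y, hy, e1⟩ := exists_lift hf (AS_perf hs) (b := alternatingGroup.ofSubtype s a) ⟨a, rfl⟩
    refine ⟨⟨y, hy⟩, ?_⟩
    apply alternatingGroup.ofSubtype_injective (s := s)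
    exact (he ⟨y, hy⟩).trans e1
  · intro z hz g
    apply Subtype.ext
    apply hf.central
    rw [← he z]
    have : e.symm (r z) = 1 := hz
    rw [this, map_one]
  · have h1 := Yc_perf hf (AS_perf hs)
    apply Subgroup.map_injective (Yc f (AS s)).subtype_injective
    rw [Subgroup.map_commutator, ← MonoidHom.range_eq_map, Subgroup.range_subtype, h1]

end Alt

end Cfsg.Agent.AltS
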