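import Cfsg.Agent.AltS.Star

set_option autoImplicit false

namespace Cfsg.Agent.AltS

open Module Finset

/-- every nontrivial representation of a perfect central extension of `Alt(r)` has degree at
least `B`. -/
def RB (k : Type) [Field k] (r B : ℕ) : Prop :=
  ∀ (α : Type) [Fintype α] [DecidableEq α], Fintype.card α = r →
    ∀ (G : Type) [Group G] (f : G →* alternatingGroup α), Cov f →
      ∀ (V : Type) [AddCommGroup V] [Module k V] [FiniteDimensional k V]
        (ρ : G →* Module.End k V), (∃ g, ρ g ≠ 1) → B ≤ finrank k V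

section
variable {k V G α : Type*} [Field k] [AddCommGroup V] [Module k V] [Group G]
  [Fintype α] [DecidableEq α] {f : G →* alternatingGroup α} {ρ : G →* Module.End k V}

theorem exists_ne_one (hα : 5 ≤ Fintype.card α) : ∃ x : alternatingGroup α, x ≠ 1 := by
  have := alternatingGroup.nontrivial_of_three_le_card (α := α)
    (by rw [Nat.card_eq_fintype_card]; omega)
  exact exists_ne 1

theorem AS_nontriv {s : Finset α} (hs : 5 ≤ s.card) : ∃ z ∈ AS s, z ≠ 1 := by
  obtain ⟨a, ha⟩ : s.Nonempty := by rw [← card_pos]; omega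
  obtain ⟨b, hb, hba⟩ := exists_mem_ne (s := s) (by omega) a
  obtain ⟨z, hz, e⟩ := exists_move (s := s) (by omega) ha hb
  refine ⟨z, hz, ?_⟩
  rintro rfl
  exact hba e.symm

theorem irr_setup [IsAlgClosed k] [FiniteDimensional k V] (hf : Cov f)
    (hα : 5 ≤ Fintype.card α) (hirr : IrrOn ρ ⊤) (hne : ∃ g, ρ g ≠ 1) :
    Scal f ρ ∧ 2 ≤ finrank k V := by
  obtain ⟨g0, hg0⟩ := hne
  have hV : Nontrivial V := by
    by_contra h
    rw [not_nontrivial_iff_subsingleton] at h
    exact hg0 (LinearMap.ext fun v => Subsingleton.elim _ _)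
  refine ⟨?_, ?_⟩
  · intro z hz
    refine schur ρ ⊤ hirr (ρ z) ?_
    intro h _ v
    rw [← rho_mul_apply, ← rho_mul_apply, hf.central z hz h]
  · by_contra hlt
    have h1 : finrank k V = 1 := by
      have := finrank_pos (R := k) (M := V)
      omega
    obtain ⟨v, hv, hv2⟩ := finrank_eq_one_iff'.mp h1
    have hs : ∀ T : Module.End k V, ∃ c : k, ∀ w, T w = c • w := by
      intro T
      obtain ⟨c, hc⟩ := hv2 (T v)
      refine ⟨c, fun w => ?_⟩
      obtain ⟨d, rfl⟩ := hv2 w
      rw [map_smul, ← hc, smul_smul, smul_smul, mul_comm]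
    obtain ⟨x, hx⟩ := exists_ne_one (α := α) hα
    obtain ⟨y, rfl⟩ := hf.surj x
    exact hg0 (trivial_of_scalar hf hα hx (hs _) g0)

end

theorem rb8 {k : Type} [Field k] [IsAlgClosed k] (hk : (2 : k) ≠ 0) : RB k 8 7 := by
  intro α _ _ hα G _ f hf V _ _ _ ρ hρ
  obtain ⟨W, i1, i2, i3, σ, h1, h2, h3, _⟩ := exists_irr hf.perf _ V ρ rfl hρ
  obtain ⟨hz, hd⟩ := irr_setup hf (by omega) h2 h3
  have ι : Fin 8 ↪ α := (Fintype.equivFinOfCardEq hα).symm.toEmbedding
  exact (w8 hf hz h2 hd hk ι).trans h1

theorem rb9 {k : Type} [Field k] [IsAlgClosed k] : RB k 9 (dd k 9) := by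
  intro α _ _ hα G _ f hf V _ _ _ ρ hρ
  obtain ⟨W, i1, i2, i3, σ, h1, h2, h3, _⟩ := exists_irr hf.perf _ V ρ rfl hρ
  obtain ⟨hz, hd⟩ := irr_setup hf (by omega) h2 h3
  have ι : Fin 9 ↪ α := (Fintype.equivFinOfCardEq hα).symm.toEmbedding
  by_cases h9 : ((9 : ℕ) : k) = 0
  · rw [dd_eq h9]
    have h3' : (3 : k) = 0 := by
      have : (3 : k) * 3 = 0 := by
        rw [← h9]; norm_num
      rcases mul_eq_zero.mp this with h | h <;> exact h
    have h2' : (2 : k) ≠ 0 := by
      intro h
      have : (1 : k) = 3 - 2 := by norm_num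
      rw [h3', h, sub_zero] at this
      exact one_ne_zero this
    have ι' : Fin 8 ↪ α := (Fin.castLEEmb (by norm_num : 8 ≤ 9)).trans ι
    exact (w8 hf hz h2 hd h2' ι').trans h1
  · rw [dd_ne h9]
    have h3' : (3 : k) ≠ 0 := by
      intro h
      apply h9
      have : ((9 : ℕ) : k) = 3 * 3 := by norm_num
      rw [this, h, zero_mul]
    exact (w9 hf hz h2 hd h3' ι).trans h1

/-- restriction to the cover of the alternating group on a subset. -/
theorem rb_sub {k : Type} [Field k] {α : Type} [Fintype α] [DecidableEq α] {G : Type} [Group G]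
    {f : G →* alternatingGroup α} (hf : Cov f) {s : Finset α} (hs : 5 ≤ s.card) {B : ℕ}
    (hB : RB k s.card B) {V : Type} [AddCommGroup V] [Module k V] [FiniteDimensional k V]
    (σ : Yc f (AS s) →* Module.End k V) (hσ : ∃ g, σ g ≠ 1) : B ≤ finrank k V := by
  obtain ⟨fs, hfs, _⟩ := exists_subcov hf hs
  exact hB s (Fintype.card_coe s) _ fs hfs V σ hσ

theorem rb_main {k : Type} [Field k] [IsAlgClosed k] : ∀ r, 9 ≤ r → RB k r (dd k r) := by
  intro r
  induction r using Nat.strong_induction_on with
  | _ r ih =>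
    intro hr
    rcases Nat.eq_or_lt_of_le hr with h9 | h10
    · rw [← h9]; exact rb9
    intro α _ _ hα G _ f hf V _ _ _ ρ hρ
    obtain ⟨W, i1, i2, i3, σ, h1, h2, h3, _⟩ := exists_irr hf.perf _ V ρ rfl hρ
    obtain ⟨hz, hd⟩ := irr_setup hf (by omega) h2 h3
    refine le_trans ?_ h1
    by_contra hlt
    push Not at hlt
    have hle := dd_le (k := k) r
    by_cases hr0 : (r : k) = 0
    · rw [dd_eq hr0] at hlt
      obtain ⟨a, ha⟩ : (univ : Finset α).Nonempty := by rw [← card_pos, card_univ]; omega
      have hc : (univ.erase a).card = r - 1 := by rw [card_erase_of_mem ha, card_univ, hα]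
      have hB : RB k (univ.erase a).card (dd k (r - 1)) := by
        rw [hc]; exact ih (r - 1) (by omega) (by omega)
      have h4 := rb_sub hf (s := univ.erase a) (by omega) hB
        (σ.comp (Yc f (AS (univ.erase a))).subtype) (by
          obtain ⟨z, hz1, hz2⟩ := AS_nontriv (s := univ.erase a) (by omega)
          obtain ⟨y, hy, e⟩ := exists_lift hf (AS_perf (by omega)) hz1
          refine ⟨⟨y, hy⟩, fun h => ?_⟩
          apply not_scalar hf (by omega) h2 hd (x := y) (by rw [e]; exact hz2)
          exact ⟨1, fun v => by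
            rw [one_smul]
            exact congrArg (fun T : Module.End k W => T v) h⟩)
      have hr1 : ((r - 1 : ℕ) : k) ≠ 0 := by
        intro h
        rw [Nat.cast_sub (by omega), hr0, Nat.cast_one, zero_sub, neg_eq_zero] at h
        exact one_ne_zero h
      rw [dd_ne hr1] at h4
      omega
    · have hn : finrank k W ≤ r - 2 := by omega
      have hstar : ∀ s : Finset α, Fintype.card α ≤ s.card + 3 → s.card < Fintype.card α →
          ∀ U : Submodule k W, Inv σ (Yc f (AS s)) U →
          (∀ g ∈ Yc f (AS s), ∀ u ∈ U, σ g u = u) ∨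
            (∀ g ∈ Yc f (AS s), ∀ v, σ g v - v ∈ U) := by
        intro s hs1 hs2 U hU
        rw [hα] at hs1 hs2
        by_cases hcase : r ≤ 11 ∧ (5 : k) ≠ 0
        · exact star10 hf hz hd (by omega) hcase.2 (by omega) (by omega) U hU
        · obtain ⟨B, hB, hB2⟩ : ∃ B, RB k s.card B ∧ r - 2 < 2 * B := by
            by_cases hs9 : 9 ≤ s.card
            · refine ⟨dd k s.card, ih _ hs2 hs9, ?_⟩
              have := dd_ge (k := k) s.card
              omega
            · have hr11 : r ≤ 11 := by omega
              have h50 : (5 : k) = 0 := by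
                by_contra h
                exact hcase ⟨hr11, h⟩
              have hr11' : r = 11 := by
                by_contra hne
                have : r = 10 := by omega
                apply hr0
                rw [this]
                have : ((10 : ℕ) : k) = 2 * 5 := by norm_num
                rw [this, h50, mul_zero]
              have hs8 : s.card = 8 := by omega
              rw [hs8]
              refine ⟨7, rb8 ?_, by omega⟩
              intro h20
              have : (1 : k) = 5 - 2 * 2 := by norm_num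
              rw [h50, h20, mul_zero, sub_zero] at this
              exact one_ne_zero this
          by_contra hcon
          push Not at hcon
          obtain ⟨⟨g1, hg1, u1, hu1, hne1⟩, ⟨g2, hg2, v2, hne2⟩⟩ := hcon
          obtain ⟨σ1, hσ1⟩ := exists_sub σ _ U hU
          obtain ⟨τ1, hτ1⟩ := exists_quot σ _ U hU
          have b1 := rb_sub hf (by omega) hB σ1 ⟨⟨g1, hg1⟩, fun h => hne1 (by
            have h3 := hσ1 ⟨g1, hg1⟩ ⟨u1, hu1⟩
            rw [h] at h3
            exact h3.symm)⟩
          have b2 := rb_sub hf (by omega) hB τ1 ⟨⟨g2, hg2⟩, fun h => hne2 (by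
            have h3 := hτ1 ⟨g2, hg2⟩ v2
            rw [h] at h3
            exact (Submodule.Quotient.eq U).mp h3.symm)⟩
          have h5 := U.finrank_quotient_add_finrank
          omega
      have := chain_bound hf hz (by omega) h2 hd hstar
      rw [hα] at this
      omega

end Cfsg.Agent.AltS
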