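import Mathlib

set_option autoImplicit false

namespace Cfsg.Agent.AltS

open Module

section LI
variable {k V ι N : Type*} [Field k] [AddCommGroup V] [Module k V]

/-- Weight vectors with distinct weights are linearly independent. -/
theorem li_of_weights (T : N → Module.End k V) (v : ι → V) (χ : ι → N → k)
    (hχ : Function.Injective χ) (hv : ∀ i, v i ≠ 0)
    (h : ∀ n i, T n (v i) = χ i n • v i) : LinearIndependent k v := by
  classical
  rw [linearIndependent_iff']
  intro s
  induction s using Finset.induction_on with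
  | empty => simp
  | insert j s hj ih =>
    intro c hc
    have key : ∀ i ∈ s, c i = 0 := by
      intro i hi
      have hij : i ≠ j := fun e => hj (e ▸ hi)
      obtain ⟨n, hn⟩ : ∃ n, χ i n ≠ χ j n := by
        by_contra hcon
        push Not at hcon
        exact hij (hχ (funext hcon))
      have h1 : ∑ i ∈ s, (c i * (χ i n - χ j n)) • v i = 0 := by
        have h2 : T n (∑ i ∈ insert j s, c i • v i) - χ j n • (∑ i ∈ insert j s, c i • v i) = 0 := by
          rw [hc]; simp
        rw [map_sum, Finset.smul_sum, ← Finset.sum_sub_distrib, Finset.sum_insert hj] at h2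
        have h3 : T n (c j • v j) - χ j n • c j • v j = 0 := by
          rw [map_smul, h, smul_smul, smul_smul, mul_comm, sub_self]
        rw [h3, zero_add] at h2
        rw [← h2]
        refine Finset.sum_congr rfl fun x _ => ?_
        rw [map_smul, h, smul_smul, smul_smul, ← sub_smul]
        congr 1
        ring
      exact (mul_eq_zero.mp (ih _ h1 i hi)).resolve_right (sub_ne_zero.mpr hn)
    intro i hi
    rcases Finset.mem_insert.mp hi with rfl | hi
    · rw [Finset.sum_insert hj, Finset.sum_eq_zero, add_zero] at hc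
      · exact (smul_eq_zero.mp hc).resolve_right (hv i)
      · intro x hx
        rw [key x hx, zero_smul]
    · exact key i hi

theorem card_le_of_weights [Fintype ι] [FiniteDimensional k V] (T : N → Module.End k V) (v : ι → V)
    (χ : ι → N → k) (hχ : Function.Injective χ) (hv : ∀ i, v i ≠ 0)
    (h : ∀ n i, T n (v i) = χ i n • v i) : Fintype.card ι ≤ finrank k V :=
  (li_of_weights T v χ hχ hv h).fintype_card_le_finrank

end LI

section CE
variable {k V N : Type*} [Field k] [IsAlgClosed k] [AddCommGroup V] [Module k V]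
  [FiniteDimensional k V]

/-- an operator preserving a nonzero subspace has an eigenvector in it. -/
theorem exists_eig (T : Module.End k V) (W : Submodule k V) (hW : W ≠ ⊥) (hT : ∀ w ∈ W, T w ∈ W) :
    ∃ μ : k, ∃ w ∈ W, w ≠ 0 ∧ T w = μ • w := by
  have : Nontrivial W := Submodule.nontrivial_iff_ne_bot.mpr hW
  obtain ⟨μ, hμ⟩ := Module.End.exists_eigenvalue (T.restrict hT)
  obtain ⟨w, hw⟩ := hμ.exists_hasEigenvector
  refine ⟨μ, w, w.2, fun h => hw.2 (Subtype.ext h), ?_⟩
  have := hw.apply_eq_smul
  have h2 := congrArg Subtype.val this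
  simpa using h2

/-- commuting operators preserving a nonzero subspace have a common eigenvector in it. -/
theorem exists_common_eig (T : N → Module.End k V) (hc : ∀ a b v, T a (T b v) = T b (T a v)) :
    ∀ W : Submodule k V, W ≠ ⊥ → (∀ n, ∀ w ∈ W, T n w ∈ W) →
      ∃ w ∈ W, w ≠ 0 ∧ ∀ n, ∃ μ : k, T n w = μ • w := by
  intro W
  induction hn : finrank k W using Nat.strong_induction_on generalizing W with
  | _ m ih =>
    intro hW hT
    by_cases hall : ∀ n, ∃ μ : k, ∀ w ∈ W, T n w = μ • w
    · obtain ⟨w, hw, hw0⟩ := Submodule.exists_mem_ne_zero_of_ne_bot hW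
      exact ⟨w, hw, hw0, fun n => (hall n).imp fun μ h => h w hw⟩
    · push Not at hall
      obtain ⟨n, hn'⟩ := hall
      obtain ⟨μ, w, hw, hw0, hwe⟩ := exists_eig (T n) W hW (hT n)
      set W' : Submodule k V := W ⊓ LinearMap.ker (T n - μ • LinearMap.id) with hW'
      have hmem : ∀ x, x ∈ W' ↔ x ∈ W ∧ T n x = μ • x := by
        intro x
        rw [hW', Submodule.mem_inf, LinearMap.mem_ker]
        simp [sub_eq_zero]
      have hlt : W' < W := by
        refine lt_of_le_of_ne inf_le_left fun e => ?_
        obtain ⟨x, hx, hx'⟩ := hn' μ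
        exact hx' ((hmem x).mp (e ▸ hx)).2
      have hfin : finrank k W' < m := hn ▸ Submodule.finrank_lt_finrank_of_lt hlt
      obtain ⟨x, hx, hx0, hxe⟩ := ih _ hfin W' rfl
        (fun e => hw0 (by
          have : w ∈ W' := (hmem w).mpr ⟨hw, hwe⟩
          rw [e] at this
          simpa using this))
        (fun a x hx => (hmem _).mpr ⟨hT a x ((hmem x).mp hx).1, by
          rw [hc, ((hmem x).mp hx).2, map_smul]⟩)
      exact ⟨x, ((hmem x).mp hx).1, hx0, hxe⟩

end CE

section Rep
variable {k V G : Type*} [Field k] [AddCommGroup V] [Module k V] [Group G]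

/-- invariance of a subspace under a subgroup. -/
def Inv (ρ : G →* Module.End k V) (H : Subgroup G) (U : Submodule k V) : Prop :=
  ∀ h ∈ H, ∀ u ∈ U, ρ h u ∈ U

/-- irreducibility of the restriction to a subgroup. -/
def IrrOn (ρ : G →* Module.End k V) (H : Subgroup G) : Prop :=
  ∀ U : Submodule k V, Inv ρ H U → U = ⊥ ∨ U = ⊤

variable (ρ : G →* Module.End k V)

theorem rho_mul_apply (g h : G) (v : V) : ρ (g * h) v = ρ g (ρ h v) := by
  rw [map_mul]; rfl

@[simp] theorem rho_one_apply (v : V) : ρ 1 v = v := by
  rw [map_one]; rfl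

@[simp] theorem rho_inv_self (g : G) (v : V) : ρ g⁻¹ (ρ g v) = v := by
  rw [← rho_mul_apply, inv_mul_cancel, rho_one_apply]

@[simp] theorem rho_self_inv (g : G) (v : V) : ρ g (ρ g⁻¹ v) = v := by
  rw [← rho_mul_apply, mul_inv_cancel, rho_one_apply]

theorem rho_ne_zero (g : G) {v : V} (hv : v ≠ 0) : ρ g v ≠ 0 := by
  intro h
  apply hv
  rw [← rho_inv_self ρ g v, h, map_zero]

theorem exists_sub (H : Subgroup G) (U : Submodule k V) (hU : Inv ρ H U) :
    ∃ σ : H →* Module.End k U, ∀ (h : H) (u : U), ((σ h u : U) : V) = ρ h u := by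
  refine ⟨{ toFun := fun h => (ρ h).restrict (hU h h.2), map_one' := ?_, map_mul' := ?_ }, ?_⟩
  · ext u; simp
  · intro a b
    ext u
    simp
  · intro h u
    simp

theorem exists_quot (H : Subgroup G) (U : Submodule k V) (hU : Inv ρ H U) :
    ∃ σ : H →* Module.End k (V ⧸ U), ∀ (h : H) (v : V),
      σ h (Submodule.Quotient.mk v) = Submodule.Quotient.mk (ρ h v) := by
  refine ⟨{ toFun := fun h => U.mapQ U (ρ h) (hU h h.2), map_one' := ?_, map_mul' := ?_ }, ?_⟩
  · ext u; simp
  · intro a b
    ext u
    simp
  · intro h u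
    simp

/-- Schur's lemma. -/
theorem schur [IsAlgClosed k] [FiniteDimensional k V] [Nontrivial V] (H : Subgroup G)
    (hirr : IrrOn ρ H) (T : Module.End k V) (hT : ∀ h ∈ H, ∀ v, T (ρ h v) = ρ h (T v)) :
    ∃ μ : k, ∀ v, T v = μ • v := by
  obtain ⟨μ, w, _, hw0, hwe⟩ := exists_eig T (⊤ : Submodule k V) top_ne_bot (fun _ _ => trivial)
  refine ⟨μ, fun v => ?_⟩
  set U : Submodule k V := LinearMap.ker (T - μ • LinearMap.id) with hU
  have hmem : ∀ x, x ∈ U ↔ T x = μ • x := by
    intro x
    rw [hU, LinearMap.mem_ker]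
    simp [sub_eq_zero]
  rcases hirr U (fun h hh u hu => (hmem _).mpr (by rw [hT h hh, (hmem u).mp hu, map_smul])) with e | e
  · exact absurd ((hmem w).mpr hwe) (by rw [e]; simpa using hw0)
  · exact (hmem v).mp (e ▸ trivial)

/-- a nontrivial representation of a perfect group has a nontrivial irreducible subquotient. -/
theorem exists_irr {k : Type} [Field k] {G : Type} [Group G] (hG : ⁅(⊤ : Subgroup G), (⊤ : Subgroup G)⁆ = (⊤ : Subgroup G)) :
    ∀ (n : ℕ) (V : Type) [AddCommGroup V] [Module k V] [FiniteDimensional k V]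
      (ρ : G →* Module.End k V), finrank k V = n → (∃ g, ρ g ≠ 1) →
      ∃ (W : Type) (_ : AddCommGroup W) (_ : Module k W) (_ : FiniteDimensional k W)
        (σ : G →* Module.End k W), finrank k W ≤ n ∧ IrrOn σ ⊤ ∧ (∃ g, σ g ≠ 1) ∧
          ∀ g, ρ g = 1 → σ g = 1 := by
  intro n
  induction n using Nat.strong_induction_on with
  | _ n ih =>
    intro V _ _ _ ρ hn hρ
    by_cases hirr : IrrOn ρ ⊤
    · exact ⟨V, inferInstance, inferInstance, inferInstance, ρ, hn.le, hirr, hρ, fun _ h => h⟩
    · unfold IrrOn at hirr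
      push Not at hirr
      obtain ⟨U, hU, hb, ht⟩ := hirr
      obtain ⟨σ, hσ⟩ := exists_sub ρ ⊤ U hU
      obtain ⟨τ, hτ⟩ := exists_quot ρ ⊤ U hU
      have hfU : finrank k U < n := hn ▸ Submodule.finrank_lt ht
      have hfQ : finrank k (V ⧸ U) < n := by
        have h1 := U.finrank_quotient_add_finrank
        have h2 : 0 < finrank k U := by
          rw [Nat.pos_iff_ne_zero]
          intro h0
          exact hb (Submodule.finrank_eq_zero.mp h0)
        omega
      let e : G →* (⊤ : Subgroup G) := (Subgroup.topEquiv (G := G)).symm.toMonoidHom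
      have he : ∀ g, ((e g : (⊤ : Subgroup G)) : G) = g := fun g => rfl
      by_cases h1 : ∃ g, (σ.comp e) g ≠ 1
      · obtain ⟨W, i1, i2, i3, σ', h2, h3, h4, h5⟩ := ih _ hfU U (σ.comp e) rfl h1
        refine ⟨W, i1, i2, i3, σ', by omega, h3, h4, fun g hg => h5 g ?_⟩
        ext u
        simp only [MonoidHom.comp_apply]
        rw [hσ, he, hg]
        rfl
      · by_cases h2 : ∃ g, (τ.comp e) g ≠ 1
        · obtain ⟨W, i1, i2, i3, σ', h2, h3, h4, h5⟩ := ih _ hfQ (V ⧸ U) (τ.comp e) rfl h2
          refine ⟨W, i1, i2, i3, σ', by omega, h3, h4, fun g hg => h5 g ?_⟩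
          ext u
          simp only [MonoidHom.comp_apply, LinearMap.comp_apply, Submodule.mkQ_apply]
          rw [hτ, he, hg]
          rfl
        · exfalso
          push Not at h1 h2
          have hs : ∀ g, ∀ u ∈ U, ρ g u = u := by
            intro g u hu
            have := congrArg (fun T : Module.End k U => ((T ⟨u, hu⟩ : U) : V)) (h1 g)
            simp only [MonoidHom.comp_apply] at this
            rw [hσ, he] at this
            simpa using this
          have hq : ∀ g v, ρ g v - v ∈ U := by
            intro g v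
            have := congrArg (fun T : Module.End k (V ⧸ U) => T (Submodule.Quotient.mk v)) (h2 g)
            simp only [MonoidHom.comp_apply] at this
            rw [hτ, he] at this
            exact (Submodule.Quotient.eq U).mp (by simpa using this)
          have hcomm : ∀ g h, ρ g * ρ h = ρ h * ρ g := by
            intro g h
            ext v
            change ρ g (ρ h v) = ρ h (ρ g v)
            have e1 : ρ g (ρ h v - v) = ρ h v - v := hs g _ (hq h v)
            have e2 : ρ h (ρ g v - v) = ρ g v - v := hs h _ (hq g v)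
            rw [map_sub] at e1 e2
            rw [sub_eq_iff_eq_add] at e1 e2
            rw [e1, e2]
            abel
          have hker : (⊤ : Subgroup G) ≤ MonoidHom.ker (ρ.toHomUnits) := by
            rw [← hG, Subgroup.commutator_le]
            intro a _ b _
            rw [MonoidHom.mem_ker, map_commutatorElement, commutatorElement_eq_one_iff_mul_comm]
            ext1
            simpa using hcomm a b
          obtain ⟨g, hg⟩ := hρ
          apply hg
          have := hker (Subgroup.mem_top g)
          rw [MonoidHom.mem_ker] at this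
          have := congrArg Units.val this
          simpa using this

end Rep

end Cfsg.Agent.AltS
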