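import Cfsg.Agent.AltS.NR

set_option autoImplicit false

namespace Cfsg.Agent.AltS

open Module Finset

variable {k V G α : Type*} [Field k] [AddCommGroup V] [Module k V] [Group G]
  [Fintype α] [DecidableEq α] {f : G →* alternatingGroup α}

open Classical in
/-- the smallest degree of a nontrivial projective representation. -/
noncomputable def dd (k : Type*) [Field k] (r : ℕ) : ℕ := if (r : k) = 0 then r - 2 else r - 1

theorem dd_eq {k : Type*} [Field k] {r : ℕ} (h : (r : k) = 0) : dd k r = r - 2 := if_pos h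

theorem dd_ne {k : Type*} [Field k] {r : ℕ} (h : (r : k) ≠ 0) : dd k r = r - 1 := if_neg h

theorem dd_ge {k : Type*} [Field k] (r : ℕ) : r - 2 ≤ dd k r := by
  unfold dd; split_ifs <;> omega

theorem dd_le {k : Type*} [Field k] (r : ℕ) : dd k r ≤ r - 1 := by
  unfold dd; split_ifs <;> omega

/-- linear relations between the `w i` with coefficient sum zero are constant. -/
theorem const_of_rel (hα : 10 ≤ Fintype.card α) (hf : Cov f) {ρ : G →* Module.End k V} {w : α → V}
    {i₀ i₁ : α} (w0 : w i₀ = 0) (w1 : w i₁ ≠ 0)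
    (hw : ∀ (g : G) (i j : α), ρ g (w j - w i) = w ((f g).1 j) - w ((f g).1 i))
    {c : α → k} (hc : ∑ i, c i = 0) (hcw : ∑ i, c i • w i = 0) (i j : α) : c i = c j := by
  have hne : ∀ a b, a ≠ b → w a ≠ w b := by
    intro a b hab e
    obtain ⟨π, h1, h2⟩ := exists_two_trans (by omega) hab
      (show i₀ ≠ i₁ from fun e => w1 (by rw [← e, w0]))
    obtain ⟨g, rfl⟩ := hf.surj π
    have := hw g a b
    rw [h1, h2, e, sub_self, map_zero, w0, sub_zero] at this
    exact w1 this.symm
  have hK : ∀ c : α → k, ∑ i, c i = 0 → ∑ i, c i • w i = 0 → ∀ π : alternatingGroup α,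
      ∑ i, c (π.1⁻¹ i) = 0 ∧ ∑ i, c (π.1⁻¹ i) • w i = 0 := by
    intro c hc hcw π
    refine ⟨?_, ?_⟩
    · rw [← hc]
      exact Equiv.sum_comp π.1⁻¹ c
    · obtain ⟨g, rfl⟩ := hf.surj π
      have h1 : ∑ i, c ((f g).1⁻¹ i) • w i = ∑ i, c i • w ((f g).1 i) := by
        rw [← Equiv.sum_comp (f g).1 (fun i => c ((f g).1⁻¹ i) • w i)]
        refine sum_congr rfl fun i _ => ?_
        simp
      have h2 : ∀ i, ρ g (w i) = w ((f g).1 i) - w ((f g).1 i₀) := by
        intro i
        have := hw g i₀ i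
        rwa [w0, sub_zero] at this
      have h3 : ρ g (∑ i, c i • w i) = 0 := by rw [hcw, map_zero]
      rw [map_sum] at h3
      have h4 : ∀ i ∈ univ, ρ g (c i • w i) = c i • w ((f g).1 i) - c i • w ((f g).1 i₀) := by
        intro i _
        rw [map_smul, h2, smul_sub]
      rw [sum_congr rfl h4, sum_sub_distrib, ← sum_smul, hc, zero_smul, sub_zero] at h3
      rw [h1, h3]
  have hK2 : ∀ c : α → k, ∑ i, c i = 0 → ∑ i, c i • w i = 0 → ∀ π : alternatingGroup α,
      ∑ i, (c (π.1⁻¹ i) - c i) = 0 ∧ ∑ i, (c (π.1⁻¹ i) - c i) • w i = 0 := by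
    intro c hc hcw π
    obtain ⟨h1, h2⟩ := hK c hc hcw π
    refine ⟨by rw [sum_sub_distrib, h1, hc, sub_zero], ?_⟩
    rw [sum_congr rfl (fun i _ => sub_smul _ _ (w i)), sum_sub_distrib, h2, hcw, sub_zero]
  by_contra hcij
  have hij : i ≠ j := fun e => hcij (by rw [e])
  obtain ⟨l, hl⟩ : (univ \ {i, j} : Finset α).Nonempty := by
    rw [← card_pos]; have := card_sdiff2 (univ : Finset α) i j; rw [card_univ] at this; omega
  simp only [mem_sdiff, mem_univ, mem_insert, mem_singleton, not_or, true_and] at hl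
  obtain ⟨π, p1, p2, p3, p4⟩ := exists_c3 hij (Ne.symm hl.2) (Ne.symm hl.1)
  have hinv : ∀ (π : alternatingGroup α) a b, π.1 a = b → π.1⁻¹ b = a := by
    intro π a b h; rw [← h]; simp
  obtain ⟨h1, h2⟩ := hK2 c hc hcw π
  set d : α → k := fun x => c (π.1⁻¹ x) - c x with hd
  have dj : d j = c i - c j := by simp only [hd]; rw [hinv π i j p1]
  have d0 : ∀ x, x ≠ i → x ≠ j → x ≠ l → d x = 0 := by
    intro x hx1 hx2 hx3
    simp only [hd]
    rw [hinv π x x (p4 x hx1 hx2 hx3), sub_self]
  have hc3 := card_compl3 i j l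
  obtain ⟨m, hm⟩ : (univ \ {i, j, l} : Finset α).Nonempty := by rw [← card_pos]; omega
  obtain ⟨m', hm', hmm⟩ := exists_mem_ne (s := univ \ {i, j, l}) (by omega) m
  simp only [mem_sdiff, mem_univ, mem_insert, mem_singleton, not_or, true_and] at hm hm'
  obtain ⟨τ, t1, t2, t3, t4⟩ := exists_c3 (Ne.symm hm.2.1) (Ne.symm hmm) (Ne.symm hm'.2.1)
  obtain ⟨h3, h4⟩ := hK2 d h1 h2 τ
  have e1 : ∀ x, x ≠ m → x ≠ j → d (τ.1⁻¹ x) - d x = 0 := by
    intro x hxm hxj
    by_cases hx : x = m'
    · subst hx
      rw [hinv τ m x t2, d0 m hm.1 hm.2.1 hm.2.2, d0 x hm'.1 hm'.2.1 hm'.2.2, sub_self]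
    · rw [hinv τ x x (t4 x hxj hxm hx), sub_self]
  have e2 : d (τ.1⁻¹ m) - d m = d j := by
    rw [hinv τ j m t1, d0 m hm.1 hm.2.1 hm.2.2, sub_zero]
  have e3 : d (τ.1⁻¹ j) - d j = - d j := by
    rw [hinv τ m' j t3, d0 m' hm'.1 hm'.2.1 hm'.2.2, zero_sub]
  have h5 : ∑ x, (d (τ.1⁻¹ x) - d x) • w x = d j • w m - d j • w j := by
    rw [← sum_subset (subset_univ ({m, j} : Finset α))]
    · rw [sum_pair hm.2.1, e2, e3, neg_smul, sub_eq_add_neg]
    · intro x _ hx
      simp only [mem_insert, mem_singleton, not_or] at hx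
      rw [e1 x hx.1 hx.2, zero_smul]
  rw [h5, ← smul_sub] at h4
  rcases smul_eq_zero.mp h4 with h | h
  · rw [dj] at h
    exact hcij (sub_eq_zero.mp h)
  · exact hne m j hm.2.1 (sub_eq_zero.mp h)

theorem nr_bound [FiniteDimensional k V] (hf : Cov f) {ρ : G →* Module.End k V} (hz : Scal f ρ)
    {T : Finset α} (hT : 8 ≤ T.card) (hα : 10 ≤ Fintype.card α)
    {u : α → V} (hu : ∀ g ∈ Yc f (AS T), ∀ i ∈ T, ρ g (u i) = u ((f g).1 i))
    (hirr : IrrOn ρ (Yc f (AS T))) (h2 : 2 ≤ finrank k V) {o : α} (ho : o ∈ T) (huo : u o ≠ 0) :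
    dd k (Fintype.card α) ≤ finrank k V := by
  have hspan : Submodule.span k (u '' (T : Set α)) = ⊤ := by
    refine (hirr _ ?_).resolve_left ?_
    · intro g hg v hv
      induction hv using Submodule.span_induction with
      | mem v hv =>
        obtain ⟨i, hi, rfl⟩ := hv
        rw [hu g hg i hi]
        exact Submodule.subset_span ⟨_, mem_AS_map (f_mem_of_Yc hg) hi, rfl⟩
      | zero => simp
      | add v w _ _ hv hw => rw [map_add]; exact Submodule.add_mem _ hv hw
      | smul a v _ hv => rw [map_smul]; exact Submodule.smul_mem _ _ hv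
    · intro h
      have : u o ∈ Submodule.span k (u '' (T : Set α)) := Submodule.subset_span ⟨o, ho, rfl⟩
      rw [h] at this
      exact huo (by simpa using this)
  obtain ⟨i₁, h₁, hne⟩ : ∃ i₁ ∈ T, u o - u i₁ ≠ 0 := by
    by_contra hcon
    push Not at hcon
    have h3 : Submodule.span k (u '' (T : Set α)) ≤ Submodule.span k {u o} := by
      rw [Submodule.span_le]
      rintro _ ⟨i, hi, rfl⟩
      rw [← sub_eq_zero.mp (hcon i hi)]
      exact Submodule.subset_span rfl
    rw [hspan] at h3
    have h4 := Submodule.finrank_mono h3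
    rw [finrank_top] at h4
    have h5 := finrank_span_le_card (R := k) ({u o} : Set V)
    simp at h5
    omega
  have h01 : o ≠ i₁ := fun e => hne (by rw [← e, sub_self])
  obtain ⟨w, hwT, hw2⟩ := nr3 hf hz hT hα hu hspan ho h₁ h01 hne
  have hw := nr4 hf hT hα hu ho h₁ h01 hwT hw2
  have w0 : w o = 0 := by rw [hwT _ ho, sub_self]
  have w1 : w i₁ ≠ 0 := by rw [hwT _ h₁]; exact hne
  have main : ∀ s : Finset α, o ∉ s → (∀ c : α → k, (∀ i j, c i = c j) → ∑ i, c i = 0 →
      (∀ i, i ∉ s → i ≠ o → c i = 0) → ∀ i ∈ s, c i = 0) → s.card ≤ finrank k V := by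
    intro s hos hs
    have hli : LinearIndepOn k w (s : Set α) := by
      rw [linearIndepOn_finset_iff]
      intro a ha
      set c : α → k := fun i => (if i ∈ s then a i else 0) + (if i = o then - ∑ j ∈ s, a j else 0)
        with hc
      have hcs : ∀ i ∈ s, c i = a i := by
        intro i hi
        have : i ≠ o := fun e => hos (e ▸ hi)
        simp [hc, hi, this]
      have hc0 : ∀ i, i ∉ s → i ≠ o → c i = 0 := by
        intro i hi hio
        simp [hc, hi, hio]
      have s1 : ∑ i, c i = 0 := by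
        simp only [hc]
        rw [sum_add_distrib, sum_ite_mem, univ_inter, sum_ite_eq']
        simp
      have s2 : ∑ i, c i • w i = 0 := by
        simp only [hc, add_smul]
        rw [sum_add_distrib]
        have e1 : ∑ i, (if i ∈ s then a i else 0) • w i = 0 := by
          rw [← ha, ← sum_subset (subset_univ s)]
          · exact sum_congr rfl fun i hi => by rw [if_pos hi]
          · intro i _ hi
            rw [if_neg hi, zero_smul]
        have e2 : ∑ i, (if i = o then - ∑ j ∈ s, a j else 0) • w i = 0 := by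
          apply sum_eq_zero
          intro i _
          by_cases h : i = o
          · rw [h, w0, smul_zero]
          · rw [if_neg h, zero_smul]
        rw [e1, e2, add_zero]
      have hconst := const_of_rel hα hf w0 w1 hw s1 s2
      intro i hi
      rw [← hcs i hi]
      exact hs c hconst s1 hc0 i hi
    have h6 : LinearIndependent k (fun i : s => w i) := hli
    have := h6.fintype_card_le_finrank
    rwa [Fintype.card_coe] at this
  by_cases hr : ((Fintype.card α : ℕ) : k) = 0
  · rw [dd_eq hr]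
    have := main ((univ.erase o).erase i₁) (by simp) (by
      intro c hc _ h0 i _
      rw [hc i i₁]
      exact h0 i₁ (by simp) h01.symm)
    rw [card_erase_of_mem (mem_erase.mpr ⟨h01.symm, mem_univ _⟩), card_erase_of_mem (mem_univ _),
      card_univ] at this
    exact this
  · rw [dd_ne hr]
    have := main (univ.erase o) (by simp) (by
      intro c hc hs _ i _
      have : ∑ j, c j = (Fintype.card α : k) * c i := by
        rw [sum_congr rfl (fun j _ => hc j i), sum_const, card_univ, nsmul_eq_mul]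
      rw [this] at hs
      exact (mul_eq_zero.mp hs).resolve_left hr)
    rw [card_erase_of_mem (mem_univ _), card_univ] at this
    simpa using this

end Cfsg.Agent.AltS
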