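import Cfsg.Agent.AltS.PV

set_option autoImplicit false

namespace Cfsg.Agent.AltS

open Module Finset

variable {k V G α : Type*} [Field k] [AddCommGroup V] [Module k V] [Group G]
  [Fintype α] [DecidableEq α] {f : G →* alternatingGroup α}

theorem card_compl3 (i j l : α) : Fintype.card α ≤ (univ \ {i, j, l} : Finset α).card + 3 := by
  have h1 := le_card_sdiff ({i, j, l} : Finset α) univ
  have h2 := card_le_three (a := i) (b := j) (c := l)
  rw [card_univ] at h1
  omega

theorem card_sdiff3 (T : Finset α) (i j l : α) : T.card ≤ (T \ {i, j, l}).card + 3 := by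
  have h1 := le_card_sdiff ({i, j, l} : Finset α) T
  have h2 := card_le_three (a := i) (b := j) (c := l)
  omega

theorem card_sdiff2 (T : Finset α) (i j : α) : T.card ≤ (T \ {i, j}).card + 2 := by
  have h1 := le_card_sdiff ({i, j} : Finset α) T
  have h2 := card_le_two (a := i) (b := j)
  omega

theorem exists_two_trans (hα : 4 ≤ Fintype.card α) {i j i' j' : α} (h : i ≠ j) (h' : i' ≠ j') :
    ∃ g : alternatingGroup α, g.1 i = i' ∧ g.1 j = j' := by
  obtain ⟨x, _, hx⟩ := exists_move (s := (univ : Finset α)) (by rw [card_univ]; omega)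
    (mem_univ i) (mem_univ i')
  obtain ⟨y, hy, hy'⟩ := exists_move (s := (univ : Finset α).erase i')
    (by rw [card_erase_of_mem (mem_univ _), card_univ]; omega) (a := x.1 j) (b := j')
    (mem_erase.mpr ⟨fun e => h (x.1.injective (by rw [hx, e])), mem_univ _⟩)
    (mem_erase.mpr ⟨h'.symm, mem_univ _⟩)
  refine ⟨y * x, ?_, ?_⟩
  · change y.1 (x.1 i) = i'
    rw [hx]
    exact mem_AS.mp hy _ (by simp)
  · exact hy'

/-- Claim 1. -/
theorem nr1 (hf : Cov f) {ρ : G →* Module.End k V} {T : Finset α}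
    (hT : 8 ≤ T.card) (hα : 10 ≤ Fintype.card α)
    {u : α → V} (hu : ∀ g ∈ Yc f (AS T), ∀ i ∈ T, ρ g (u i) = u ((f g).1 i))
    (hspan : Submodule.span k (u '' (T : Set α)) = ⊤) {i j l : α} (hi : i ∈ T) (hj : j ∈ T)
    (hl : l ∈ T) (hij : i ≠ j) (hjl : j ≠ l) (hil : i ≠ l) :
    ∀ y ∈ Yc f (AS (univ \ {i, j, l})), ρ y (u i - u j) = u i - u j := by
  obtain ⟨c, c1, c2, c3, c4⟩ := exists_c3 hij hjl hil
  have hcT : c ∈ AS T := mem_AS.mpr fun m hm =>
    c4 m (fun e => hm (e ▸ hi)) (fun e => hm (e ▸ hj)) (fun e => hm (e ▸ hl))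
  have hc3 : c ∈ AS ({i, j, l} : Finset α) := mem_AS.mpr fun m hm => by
    simp only [mem_insert, mem_singleton, not_or] at hm
    exact c4 m hm.1 hm.2.1 hm.2.2
  obtain ⟨x, hx, hxc⟩ := exists_lift hf (AS_perf (s := T) (by omega)) hcT
  have hcard := card_compl3 i j l
  set S : Finset α := univ \ {i, j, l} with hS
  have hdisj : Disjoint ({i, j, l} : Finset α) S := disjoint_sdiff
  have hcomm : ∀ y ∈ Yc f (AS S), x * y = y * x := fun y hy =>
    comm_Yc hf x (fun b hb => by rw [hxc]; exact comm_disj hdisj hc3 hb) hy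
  let N : Subgroup G :=
    { carrier := {g | g ∈ Yc f (AS S) ∧ ∀ v, ρ g (ρ x v - v) = ρ x v - v}
      one_mem' := ⟨Subgroup.one_mem _, fun v => rho_one_apply ρ _⟩
      mul_mem' := by
        rintro a b ⟨ha1, ha2⟩ ⟨hb1, hb2⟩
        exact ⟨Subgroup.mul_mem _ ha1 hb1, fun v => by rw [rho_mul_apply, hb2, ha2]⟩
      inv_mem' := by
        rintro a ⟨ha1, ha2⟩
        refine ⟨Subgroup.inv_mem _ ha1, fun v => ?_⟩
        conv_lhs => rw [← ha2 v]
        rw [rho_inv_self] }
  have hN : ∀ h ∈ Yc f (AS S), ∀ g ∈ N, h * g * h⁻¹ ∈ N := by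
    rintro h hh g ⟨hg1, hg2⟩
    refine ⟨Subgroup.mul_mem _ (Subgroup.mul_mem _ hh hg1) (Subgroup.inv_mem _ hh), fun v => ?_⟩
    have e1 : ρ h⁻¹ (ρ x v) = ρ x (ρ h⁻¹ v) := by
      rw [← rho_mul_apply, ← rho_mul_apply, hcomm _ (Subgroup.inv_mem _ hh)]
    have e2 : ρ h⁻¹ (ρ x v - v) = ρ x (ρ h⁻¹ v) - ρ h⁻¹ v := by
      rw [map_sub, e1]
    rw [rho_mul_apply, rho_mul_apply, e2, hg2, ← e2, rho_self_inv]
  obtain ⟨m1, hm1⟩ : (T \ {i, j, l}).Nonempty := by
    rw [← card_pos]; have := card_sdiff3 T i j l; omega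
  obtain ⟨m2, hm2, hm12⟩ : ∃ m2 ∈ T \ {i, j, l}, m2 ≠ m1 := by
    have : 1 < (T \ {i, j, l}).card := by have := card_sdiff3 T i j l; omega
    exact exists_mem_ne this m1
  obtain ⟨z, hz, hzm⟩ := exists_move (s := T \ {i, j, l})
    (by have := card_sdiff3 T i j l; omega) hm1 hm2
  have hzS : z ∈ AS S := AS_mono (sdiff_subset_sdiff (subset_univ _) (Subset.refl _)) hz
  obtain ⟨g, hg, hgz⟩ := exists_lift hf (AS_perf (s := T \ {i, j, l})
    (by have := card_sdiff3 T i j l; omega)) hz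
  have hgT : g ∈ Yc f (AS T) := Yc_mono (AS_mono sdiff_subset) hg
  have hgS : g ∈ Yc f (AS S) :=
    Yc_mono (AS_mono (sdiff_subset_sdiff (subset_univ _) (Subset.refl _))) hg
  have hgfix : ∀ m, m ∈ ({i, j, l} : Finset α) → (f g).1 m = m := by
    intro m hm
    exact mem_AS.mp (f_mem_of_Yc hg) m (fun h => (mem_sdiff.mp h).2 hm)
  have hgN : g ∈ N := by
    refine ⟨hgS, ?_⟩
    have h1 : ∀ v ∈ (⊤ : Submodule k V), ρ g (ρ x v - v) = ρ x v - v := by
      rw [← hspan]
      intro v hv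
      induction hv using Submodule.span_induction with
      | mem v hv =>
        obtain ⟨m, hm, rfl⟩ := hv
        have hm : m ∈ T := hm
        rw [hu x hx m hm, hxc]
        by_cases hm3 : m ∈ ({i, j, l} : Finset α)
        · have hcm : c.1 m ∈ ({i, j, l} : Finset α) := mem_AS_map hc3 hm3
          have hcmT : c.1 m ∈ T := mem_AS_map hcT hm
          rw [map_sub, hu g hgT _ hcmT, hu g hgT m hm, hgfix _ hcm, hgfix _ hm3]
        · rw [mem_AS.mp hc3 m hm3, sub_self, map_zero]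
      | zero => simp
      | add v w _ _ hv hw =>
        have : ρ x (v + w) - (v + w) = (ρ x v - v) + (ρ x w - w) := by rw [map_add]; abel
        rw [this, map_add, hv, hw]
      | smul a v _ hv =>
        have : ρ x (a • v) - a • v = a • (ρ x v - v) := by rw [map_smul, smul_sub]
        rw [this, map_smul, hv]
    exact fun v => h1 v trivial
  have hSN : AS S ≤ N.map f := by
    refine AS_simple (by omega) ?_ (x := z) ⟨g, hgN, hgz⟩ hzS ?_
    · rintro a ha _ ⟨y, hy, rfl⟩
      obtain ⟨h, hh, rfl⟩ := exists_lift hf (AS_perf (s := S) (by omega)) ha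
      exact ⟨h * y * h⁻¹, hN h hh y hy, by rw [map_mul, map_mul, map_inv]⟩
    · rintro rfl
      exact hm12 hzm.symm
  intro y hy
  have h2 := ((Yc_le_of hf hSN) hy).2 (u i)
  rw [hu x hx i hi, hxc, c1] at h2
  have h3 : u i - u j = -(u j - u i) := by abel
  rw [h3, map_neg, h2]

/-- Claim 2. -/
theorem nr2 (hf : Cov f) {ρ : G →* Module.End k V} {T : Finset α}
    (hT : 8 ≤ T.card) (hα : 10 ≤ Fintype.card α)
    {u : α → V} (hu : ∀ g ∈ Yc f (AS T), ∀ i ∈ T, ρ g (u i) = u ((f g).1 i))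
    (hspan : Submodule.span k (u '' (T : Set α)) = ⊤) {i j : α} (hi : i ∈ T) (hj : j ∈ T)
    (hij : i ≠ j) :
    ∀ y ∈ Yc f (AS (univ \ {i, j})), ρ y (u i - u j) = u i - u j := by
  have hcT := card_sdiff2 T i j
  obtain ⟨l, hl⟩ : (T \ {i, j}).Nonempty := by rw [← card_pos]; omega
  obtain ⟨l', hl', hll⟩ := exists_mem_ne (s := T \ {i, j}) (by omega) l
  simp only [mem_sdiff, mem_insert, mem_singleton, not_or] at hl hl'
  have hcU := card_sdiff2 (univ : Finset α) i j
  rw [card_univ] at hcU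
  let N : Subgroup G :=
    { carrier := {g | ρ g (u i - u j) = u i - u j}
      one_mem' := rho_one_apply ρ _
      mul_mem' := by
        intro a b ha hb
        change ρ (a * b) _ = _
        rw [rho_mul_apply, hb, ha]
      inv_mem' := by
        intro a ha
        change ρ a⁻¹ _ = _
        have ha' : ρ a (u i - u j) = u i - u j := ha
        conv_lhs => rw [← ha']
        rw [rho_inv_self] }
  have h1 : Yc f (AS (univ \ {i, j, l})) ≤ N :=
    nr1 hf hT hα hu hspan hi hj hl.1 hij (Ne.symm hl.2.2) (Ne.symm hl.2.1)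
  have h2 : Yc f (AS (univ \ {i, j, l'})) ≤ N :=
    nr1 hf hT hα hu hspan hi hj hl'.1 hij (Ne.symm hl'.2.2) (Ne.symm hl'.2.1)
  have hc1 := card_compl3 i j l
  have hc2 := card_compl3 i j l'
  have hX : AS (univ \ {i, j}) ≤ N.map f := by
    obtain ⟨m, hm⟩ : (univ \ {i, j, l', l} : Finset α).Nonempty := by
      rw [← card_pos]
      have h3 := le_card_sdiff ({i, j, l', l} : Finset α) univ
      have h4 := card_le_four (a := i) (b := j) (c := l') (d := l)
      rw [card_univ] at h3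
      omega
    simp only [mem_sdiff, mem_insert, mem_singleton, not_or] at hm
    obtain ⟨x, hx, e⟩ := exists_move (s := univ \ {i, j, l'}) (by omega) (a := l) (b := m)
      (by simp only [mem_sdiff, mem_univ, mem_insert, mem_singleton, not_or, true_and]
          exact ⟨hl.2.1, hl.2.2, Ne.symm hll⟩)
      (by simp only [mem_sdiff, mem_univ, mem_insert, mem_singleton, not_or, true_and]
          exact ⟨hm.2.1, hm.2.2.1, hm.2.2.2.1⟩)
    refine gen_AS (a := l) (by omega) (by simp [hl.2.1, hl.2.2]) (X := N.map f) ?_ (x := x) ?_ ?_ ?_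
    · have : ((univ \ {i, j} : Finset α).erase l) ⊆ univ \ {i, j, l} := by
        intro m hm
        simp only [mem_erase, mem_sdiff, mem_univ, mem_insert, mem_singleton, not_or,
          true_and] at hm ⊢
        tauto
      refine (AS_mono this).trans ?_
      rw [← map_Yc hf (AS_perf (s := univ \ {i, j, l}) (by omega))]
      exact Subgroup.map_mono h1
    · have : x ∈ (Yc f (AS (univ \ {i, j, l'}))).map f := by
        rw [map_Yc hf (AS_perf (s := univ \ {i, j, l'}) (by omega))]; exact hx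
      exact Subgroup.map_mono h2 this
    · refine AS_mono ?_ hx
      intro m hm
      simp only [mem_sdiff, mem_univ, mem_insert, mem_singleton, not_or, true_and] at hm ⊢
      tauto
    · rw [e]; exact hm.2.2.2.2
  exact Yc_le_of hf hX

/-- the vectors of the differences, on all of `α`. -/
theorem nr3 (hf : Cov f) {ρ : G →* Module.End k V} (hz : Scal f ρ) {T : Finset α}
    (hT : 8 ≤ T.card) (hα : 10 ≤ Fintype.card α)
    {u : α → V} (hu : ∀ g ∈ Yc f (AS T), ∀ i ∈ T, ρ g (u i) = u ((f g).1 i))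
    (hspan : Submodule.span k (u '' (T : Set α)) = ⊤) {i₀ i₁ : α} (h₀ : i₀ ∈ T) (h₁ : i₁ ∈ T)
    (h01 : i₀ ≠ i₁) (hne : u i₀ - u i₁ ≠ 0) :
    ∃ w : α → V, (∀ i ∈ T, w i = u i₀ - u i) ∧
      ∀ g ∈ Yc f (AS (univ \ {i₀, i₁})), ∀ i, ρ g (w i) = w ((f g).1 i) := by
  have hcT := card_sdiff2 T i₀ i₁
  have hcU := card_sdiff2 (univ : Finset α) i₀ i₁
  rw [card_univ] at hcU
  set S2 : Finset α := univ \ {i₀, i₁} with hS2
  obtain ⟨i₂, hi2⟩ : (T \ {i₀, i₁}).Nonempty := by rw [← card_pos]; omega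
  have hi2' := hi2
  simp only [mem_sdiff, mem_insert, mem_singleton, not_or] at hi2'
  have hi2S : i₂ ∈ S2 := by simp [hS2, hi2'.2.1, hi2'.2.2]
  have hc3 := card_compl3 i₀ i₂ i₁
  have hfix2 := nr2 hf hT hα hu hspan h₀ h₁ h01
  have hfix3 := nr1 hf hT hα hu hspan h₀ hi2'.1 h₁ (Ne.symm hi2'.2.1) hi2'.2.2 h01
  have wd : ∀ g ∈ Yc f (AS S2), ∀ g' ∈ Yc f (AS S2), (f g).1 i₂ = (f g').1 i₂ →
      ρ g (u i₀ - u i₂) = ρ g' (u i₀ - u i₂) := by
    intro g hg g' hg' e
    have h1 : f (g'⁻¹ * g) ∈ AS (univ \ {i₀, i₂, i₁}) := by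
      rw [mem_AS]
      intro i hi
      by_cases hia : i = i₂
      · subst hia
        rw [map_mul, map_inv]
        change (f g').1⁻¹ ((f g).1 i) = i
        rw [e]; simp
      · have h2 := Subgroup.mul_mem _ (Subgroup.inv_mem _ hg') hg
        refine mem_AS.mp (f_mem_of_Yc h2) i fun h => hi ?_
        simp only [hS2, mem_sdiff, mem_univ, mem_insert, mem_singleton, not_or, true_and] at h ⊢
        tauto
    obtain ⟨y, hy, he⟩ := exists_lift hf (AS_perf (by omega)) h1
    have hy1 : y ∈ Yc f (AS S2) := by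
      refine Yc_mono (AS_mono ?_) hy
      intro m hm
      simp only [hS2, mem_sdiff, mem_univ, mem_insert, mem_singleton, not_or, true_and] at hm ⊢
      tauto
    have h3 := eq_of_fix hz hne (hfix2 _ (Subgroup.mul_mem _ (Subgroup.inv_mem _ hg') hg))
      (hfix2 _ hy1) he.symm (u i₀ - u i₂)
    rw [hfix3 _ hy, rho_mul_apply] at h3
    conv_rhs => rw [← h3]
    rw [rho_self_inv]
  have hA : ∀ i : α, ∃ g : G, i ∈ S2 → g ∈ Yc f (AS S2) ∧ (f g).1 i₂ = i := by
    intro i
    by_cases hi : i ∈ S2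
    · obtain ⟨g, hg, e⟩ := exists_move_lift hf (by omega) hi2S hi
      exact ⟨g, fun _ => ⟨hg, e⟩⟩
    · exact ⟨1, fun h => absurd h hi⟩
  choose gA hgA using hA
  set w : α → V := fun i => if i = i₀ then 0 else if i = i₁ then u i₀ - u i₁ else
    ρ (gA i) (u i₀ - u i₂) with hw
  have w0 : w i₀ = 0 := by simp [hw]
  have w1 : w i₁ = u i₀ - u i₁ := by simp [hw, h01.symm]
  have memS2 : ∀ i, i ∈ S2 ↔ i ≠ i₀ ∧ i ≠ i₁ := by
    intro i; simp [hS2]
  have w2 : ∀ i ∈ S2, w i = ρ (gA i) (u i₀ - u i₂) := by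
    intro i hi
    simp [hw, ((memS2 i).mp hi).1, ((memS2 i).mp hi).2]
  have w2' : ∀ g ∈ Yc f (AS S2), ∀ i ∈ S2, (f g).1 i₂ = i → ρ g (u i₀ - u i₂) = w i := by
    intro g hg i hi e
    rw [w2 i hi]
    exact wd g hg _ (hgA i hi).1 (by rw [e, (hgA i hi).2])
  refine ⟨w, ?_, ?_⟩
  · intro i hi
    by_cases e0 : i = i₀
    · subst e0; rw [w0, sub_self]
    by_cases e1 : i = i₁
    · subst e1; rw [w1]
    have hiS : i ∈ S2 := (memS2 i).mpr ⟨e0, e1⟩
    have hiT : i ∈ T \ {i₀, i₁} := by simp [hi, e0, e1]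
    obtain ⟨g, hg, e⟩ := exists_move_lift hf (by omega) hi2 hiT
    have hg2 : g ∈ Yc f (AS S2) :=
      Yc_mono (AS_mono (sdiff_subset_sdiff (subset_univ _) (Subset.refl _))) hg
    have hgT : g ∈ Yc f (AS T) := Yc_mono (AS_mono sdiff_subset) hg
    rw [← w2' g hg2 i hiS e, map_sub, hu g hgT _ h₀, hu g hgT _ hi2'.1, e]
    have : (f g).1 i₀ = i₀ := mem_AS.mp (f_mem_of_Yc hg) _ (by simp)
    rw [this]
  · intro g hg i
    by_cases e0 : i = i₀
    · subst e0
      have : (f g).1 i = i := mem_AS.mp (f_mem_of_Yc hg) _ (by simp [hS2])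
      rw [this, w0, map_zero]
    by_cases e1 : i = i₁
    · subst e1
      have : (f g).1 i = i := mem_AS.mp (f_mem_of_Yc hg) _ (by simp [hS2])
      rw [this, w1, hfix2 g hg]
    have hiS : i ∈ S2 := (memS2 i).mpr ⟨e0, e1⟩
    rw [w2 i hiS, ← rho_mul_apply]
    refine w2' _ (Subgroup.mul_mem _ hg (hgA i hiS).1) _ (mem_AS_map (f_mem_of_Yc hg) hiS) ?_
    rw [map_mul]
    change (f g).1 ((f (gA i)).1 i₂) = _
    rw [(hgA i hiS).2]

/-- all elements of `G` act naturally on the differences. -/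
theorem nr4 (hf : Cov f) {ρ : G →* Module.End k V} {T : Finset α}
    (hT : 8 ≤ T.card) (hα : 10 ≤ Fintype.card α)
    {u : α → V} (hu : ∀ g ∈ Yc f (AS T), ∀ i ∈ T, ρ g (u i) = u ((f g).1 i))
    {i₀ i₁ : α} (h₀ : i₀ ∈ T) (h₁ : i₁ ∈ T) (h01 : i₀ ≠ i₁)
    {w : α → V} (hwT : ∀ i ∈ T, w i = u i₀ - u i)
    (hw : ∀ g ∈ Yc f (AS (univ \ {i₀, i₁})), ∀ i, ρ g (w i) = w ((f g).1 i)) (g : G) (i j : α) :
    ρ g (w j - w i) = w ((f g).1 j) - w ((f g).1 i) := by
  have hcU := card_sdiff2 (univ : Finset α) i₀ i₁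
  rw [card_univ] at hcU
  have w0 : w i₀ = 0 := by rw [hwT _ h₀, sub_self]
  let P : Subgroup G :=
    { carrier := {g | ∀ i j, ρ g (w j - w i) = w ((f g).1 j) - w ((f g).1 i)}
      one_mem' := fun i j => by rw [map_one f, rho_one_apply]; rfl
      mul_mem' := by
        intro x y hx hy i j
        rw [rho_mul_apply, hy i j, hx, map_mul f]
        rfl
      inv_mem' := by
        intro x hx i j
        have h3 : ∀ i, (f x).1 ((f x⁻¹).1 i) = i := by
          intro i
          rw [map_inv]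
          change (f x).1 ((f x).1⁻¹ i) = i
          simp
        have h2 := hx ((f x⁻¹).1 i) ((f x⁻¹).1 j)
        rw [h3, h3] at h2
        rw [← h2, rho_inv_self] }
  have hP1 : Yc f (AS (univ \ {i₀, i₁})) ≤ P := by
    intro g hg i j
    rw [map_sub, hw g hg, hw g hg]
  have hP2 : ∀ a b c, a ∈ T → b ∈ T → c ∈ T → a ≠ b → b ≠ c → a ≠ c →
      ∃ x ∈ P, (f x).1 a = b ∧ ∀ i, i ≠ a → i ≠ b → i ≠ c → (f x).1 i = i := by
    intro a b c ha hb hc hab hbc hac
    obtain ⟨y, y1, y2, y3, y4⟩ := exists_c3 hab hbc hac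
    have hyT : y ∈ AS T := mem_AS.mpr fun m hm =>
      y4 m (fun e => hm (e ▸ ha)) (fun e => hm (e ▸ hb)) (fun e => hm (e ▸ hc))
    have hy3 : y ∈ AS ({a, b, c} : Finset α) := mem_AS.mpr fun m hm => by
      simp only [mem_insert, mem_singleton, not_or] at hm
      exact y4 m hm.1 hm.2.1 hm.2.2
    obtain ⟨x, hx, hxy⟩ := exists_lift hf (AS_perf (s := T) (by omega)) hyT
    have key : ∀ m, ρ x (w m) = w ((f x).1 m) - w ((f x).1 i₀) := by
      intro m
      by_cases hm : m ∈ T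
      · rw [hwT m hm, map_sub, hu x hx _ h₀, hu x hx m hm,
          hwT _ (mem_AS_map (f_mem_of_Yc hx) hm), hwT _ (mem_AS_map (f_mem_of_Yc hx) h₀)]
        abel
      · -- move an outer point
        have hc5 : 5 ≤ (univ \ ({a, b, c} ∪ {i₀, i₁}) : Finset α).card := by
          have h3 := le_card_sdiff ({a, b, c} ∪ {i₀, i₁} : Finset α) univ
          have h4 := card_le_three (a := a) (b := b) (c := c)
          have h5 := card_le_two (a := i₀) (b := i₁)
          have h6 := card_union_le ({a, b, c} : Finset α) {i₀, i₁}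
          rw [card_univ] at h3
          omega
        obtain ⟨l, hl⟩ : (T \ ({a, b, c} ∪ {i₀, i₁}) : Finset α).Nonempty := by
          rw [← card_pos]
          have h3 := le_card_sdiff ({a, b, c} ∪ {i₀, i₁} : Finset α) T
          have h4 := card_le_three (a := a) (b := b) (c := c)
          have h5 := card_le_two (a := i₀) (b := i₁)
          have h6 := card_union_le ({a, b, c} : Finset α) {i₀, i₁}
          omega
        rw [mem_sdiff] at hl
        have hmo : m ∉ ({a, b, c} ∪ {i₀, i₁} : Finset α) := by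
          intro h
          apply hm
          simp only [mem_union, mem_insert, mem_singleton] at h
          rcases h with (rfl | rfl | rfl) | (rfl | rfl) <;> assumption
        obtain ⟨h, hh, e⟩ := exists_move_lift hf hc5 (a := l) (b := m)
          (mem_sdiff.mpr ⟨mem_univ _, hl.2⟩) (mem_sdiff.mpr ⟨mem_univ _, hmo⟩)
        have hh2 : h ∈ Yc f (AS (univ \ {i₀, i₁})) := by
          refine Yc_mono (AS_mono ?_) hh
          exact sdiff_subset_sdiff (Subset.refl _) subset_union_right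
        have hhfix : ∀ z, z ∈ ({a, b, c} ∪ {i₀, i₁} : Finset α) → (f h).1 z = z := by
          intro z hz
          exact mem_AS.mp (f_mem_of_Yc hh) z fun h => (mem_sdiff.mp h).2 hz
        have hcm : x * h = h * x := by
          refine comm_Yc hf x (fun b hb => ?_) hh
          rw [hxy]
          exact comm_disj (disjoint_sdiff.mono_left subset_union_left) hy3 hb
        have hl3 : l ∉ ({a, b, c} : Finset α) := fun h => hl.2 (mem_union_left _ h)
        have hm3 : m ∉ ({a, b, c} : Finset α) := fun h => hmo (mem_union_left _ h)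
        have hxl : (f x).1 l = l := by rw [hxy]; exact mem_AS.mp hy3 l hl3
        have hxm : (f x).1 m = m := by rw [hxy]; exact mem_AS.mp hy3 m hm3
        have hxi : (f x).1 i₀ ∈ ({a, b, c} ∪ {i₀, i₁} : Finset α) := by
          by_cases hi : i₀ ∈ ({a, b, c} : Finset α)
          · rw [hxy]
            exact mem_union_left _ (mem_AS_map hy3 hi)
          · rw [hxy, mem_AS.mp hy3 _ hi]
            simp
        have hlT : ρ x (w l) = w l - w ((f x).1 i₀) := by
          rw [hwT l hl.1, map_sub, hu x hx _ h₀, hu x hx l hl.1,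
            hwT _ (mem_AS_map (f_mem_of_Yc hx) h₀), hxl]
          abel
        have hwm : w m = ρ h (w l) := by rw [hw h hh2, e]
        rw [hwm, ← rho_mul_apply, hcm, rho_mul_apply, hlT, map_sub, hw h hh2, hw h hh2, e, hxm,
          hhfix _ hxi]
    refine ⟨x, ?_, by rw [hxy, y1], fun i h1 h2 h3 => by rw [hxy]; exact y4 i h1 h2 h3⟩
    intro i j
    rw [map_sub, key, key]
    abel
  obtain ⟨l1, hl1⟩ : (T \ {i₀, i₁}).Nonempty := by
    rw [← card_pos]; have := card_sdiff2 T i₀ i₁; omega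
  obtain ⟨l2, hl2, hl12⟩ := exists_mem_ne (s := T \ {i₀, i₁})
    (by have := card_sdiff2 T i₀ i₁; omega) l1
  simp only [mem_sdiff, mem_insert, mem_singleton, not_or] at hl1 hl2
  have hX1 : AS (univ \ {i₀}) ≤ P.map f := by
    obtain ⟨x, hx, e1, e2⟩ := hP2 i₁ l1 l2 h₁ hl1.1 hl2.1 (Ne.symm hl1.2.2) (Ne.symm hl12)
      (Ne.symm hl2.2.2)
    refine gen_AS (a := i₁) ?_ (by simp [h01.symm]) (X := P.map f) ?_ (x := f x) ⟨x, hx, rfl⟩ ?_ ?_
    · have h3 := le_card_sdiff ({i₀} : Finset α) univ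
      rw [card_univ, card_singleton] at h3
      omega
    · have : ((univ \ {i₀} : Finset α).erase i₁) ⊆ univ \ {i₀, i₁} := by
        intro m hm
        simp only [mem_erase, mem_sdiff, mem_univ, mem_insert, mem_singleton, not_or,
          true_and] at hm ⊢
        tauto
      refine (AS_mono this).trans ?_
      rw [← map_Yc hf (AS_perf (s := univ \ {i₀, i₁}) (by omega))]
      exact Subgroup.map_mono hP1
    · rw [mem_AS]
      intro i hi
      have : i = i₀ := by simpa using hi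
      rw [this]
      exact e2 _ h01 (Ne.symm hl1.2.1) (Ne.symm hl2.2.1)
    · rw [e1]; exact hl1.2.2
  have hX2 : AS (univ : Finset α) ≤ P.map f := by
    obtain ⟨x, hx, e1, e2⟩ := hP2 i₀ l1 l2 h₀ hl1.1 hl2.1 (Ne.symm hl1.2.1) (Ne.symm hl12)
      (Ne.symm hl2.2.1)
    refine gen_AS (a := i₀) (by rw [card_univ]; omega) (mem_univ _) (X := P.map f) ?_ (x := f x)
      ⟨x, hx, rfl⟩ ?_ ?_
    · refine (AS_mono ?_).trans hX1
      intro m hm
      simp only [mem_erase, mem_sdiff, mem_univ, mem_singleton, true_and] at hm ⊢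
      tauto
    · rw [AS_univ]; trivial
    · rw [e1]; exact hl1.2.1
  rw [AS_univ] at hX2
  have hfin := Yc_le_of hf hX2
  rw [Yc_top hf] at hfin
  exact hfin (Subgroup.mem_top g) i j

end Cfsg.Agent.AltS
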