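import Cfsg.Agent.AltS.Lin
import Cfsg.Agent.AltS.Cov

set_option autoImplicit false

namespace Cfsg.Agent.AltS

open Module Finset

variable {k V G α : Type*} [Field k] [AddCommGroup V] [Module k V] [Group G]
  [Fintype α] [DecidableEq α] {f : G →* alternatingGroup α}

/-- the kernel acts by scalars. -/
def Scal (f : G →* alternatingGroup α) (ρ : G →* Module.End k V) : Prop :=
  ∀ z, f z = 1 → ∃ c : k, ∀ v, ρ z v = c • v

theorem eq_of_fix {ρ : G →* Module.End k V} (hz : Scal f ρ) {w : V} (hw : w ≠ 0) {g y : G}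
    (hg : ρ g w = w) (hy : ρ y w = w) (e : f g = f y) (v : V) : ρ g v = ρ y v := by
  obtain ⟨c, hc⟩ := hz (y⁻¹ * g) (by rw [map_mul, map_inv, e]; simp)
  have h1 : ρ (y⁻¹ * g) w = w := by
    rw [rho_mul_apply, hg]
    conv_lhs => rw [← hy]
    rw [rho_inv_self]
  rw [hc] at h1
  have hc1 : c = 1 := by
    by_contra hne
    have : (c - 1) • w = 0 := by rw [sub_smul, h1, one_smul, sub_self]
    rcases smul_eq_zero.mp this with h | h
    · exact hne (sub_eq_zero.mp h)
    · exact hw h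
  have h2 := hc v
  rw [hc1, one_smul, rho_mul_apply] at h2
  conv_rhs => rw [← h2]
  rw [rho_self_inv]

theorem conj_AS {T : Finset α} {g b : alternatingGroup α} (hg : g ∈ AS T) {i : α}
    (hb : b ∈ AS (T.erase i)) : g * b * g⁻¹ ∈ AS (T.erase (g.1 i)) := by
  rw [mem_AS]
  intro j hj
  change g.1 (b.1 (g.1⁻¹ j)) = j
  have : b.1 (g.1⁻¹ j) = g.1⁻¹ j := by
    apply mem_AS.mp hb
    intro h
    apply hj
    rw [mem_erase] at h ⊢
    constructor
    · rintro rfl
      apply h.1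
      simp
    · by_contra hjT
      have h2 := mem_AS.mp (Subgroup.inv_mem _ hg) j hjT
      have h3 : g.1⁻¹ j = j := h2
      rw [h3] at h
      exact hjT h.2
  rw [this]
  simp

theorem fix_conj {ρ : G →* Module.End k V} {T : Finset α} {g : G} (hg : f g ∈ AS T) {i : α} {w : V}
    (hw : ∀ y ∈ Yc f (AS (T.erase i)), ρ y w = w) :
    ∀ y ∈ Yc f (AS (T.erase ((f g).1 i))), ρ y (ρ g w) = ρ g w := by
  intro y hy
  have h1 : g⁻¹ * y * g⁻¹⁻¹ ∈ Yc f (AS (T.erase i)) := by
    refine conj_mem_Yc g⁻¹ ?_ hy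
    intro b hb
    rw [map_inv]
    have h2 := conj_AS (Subgroup.inv_mem _ hg) hb
    have h3 : ((f g)⁻¹ : alternatingGroup α).1 ((f g).1 i) = i := by
      change (f g).1⁻¹ ((f g).1 i) = i
      simp
    rwa [h3] at h2
  have h4 := hw _ h1
  rw [inv_inv, rho_mul_apply, rho_mul_apply] at h4
  calc ρ y (ρ g w) = ρ g (ρ g⁻¹ (ρ y (ρ g w))) := by rw [rho_self_inv]
    _ = ρ g w := by rw [h4]

theorem mem_AS_map {s : Finset α} {g : alternatingGroup α} (hg : g ∈ AS s) {i : α} (hi : i ∈ s) :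
    g.1 i ∈ s := by
  by_contra h
  have h2 := mem_AS.mp hg _ h
  exact h (by rw [g.1.injective h2]; exact hi)

/-- transport of a vector is well defined. -/
theorem transport_wd (hf : Cov f) {ρ : G →* Module.End k V} (hz : Scal f ρ) {T : Finset α}
    (hT : 7 ≤ T.card) {o a : α} (ho : o ∈ T) (ha : a ∈ T) (hao : a ≠ o) {w u : V} (hw : w ≠ 0)
    (hwo : ∀ y ∈ Yc f (AS (T.erase o)), ρ y w = w)
    (hua : ∀ y ∈ Yc f (AS (T.erase a)), ρ y u = u) {g g' : G}
    (hg : g ∈ Yc f (AS (T.erase o))) (hg' : g' ∈ Yc f (AS (T.erase o)))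
    (e : (f g).1 a = (f g').1 a) : ρ g u = ρ g' u := by
  have hc : 5 ≤ ((T.erase o).erase a).card := by
    rw [card_erase_of_mem (mem_erase.mpr ⟨hao, ha⟩), card_erase_of_mem ho]; omega
  have h1 : f (g'⁻¹ * g) ∈ AS ((T.erase o).erase a) := by
    rw [mem_AS]
    intro i hi
    by_cases hia : i = a
    · subst hia
      rw [map_mul, map_inv]
      change (f g').1⁻¹ ((f g).1 i) = i
      rw [e]; simp
    · have h2 := Subgroup.mul_mem _ (Subgroup.inv_mem _ hg') hg
      exact mem_AS.mp (f_mem_of_Yc h2) i fun h => hi (mem_erase.mpr ⟨hia, h⟩)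
  obtain ⟨y, hy, he⟩ := exists_lift hf (AS_perf hc) h1
  have hy1 : y ∈ Yc f (AS (T.erase o)) := Yc_mono (AS_mono (erase_subset _ _)) hy
  have hy2 : y ∈ Yc f (AS (T.erase a)) := by
    refine Yc_mono (AS_mono ?_) hy
    rw [erase_right_comm]
    exact erase_subset _ _
  have h3 := eq_of_fix hz hw (hwo _ (Subgroup.mul_mem _ (Subgroup.inv_mem _ hg') hg)) (hwo _ hy1)
    he.symm u
  rw [hua _ hy2, rho_mul_apply] at h3
  conv_rhs => rw [← h3]
  rw [rho_self_inv]

theorem exists_move_lift (hf : Cov f) {s : Finset α} (hs : 5 ≤ s.card) {a b : α} (ha : a ∈ s)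
    (hb : b ∈ s) : ∃ g ∈ Yc f (AS s), (f g).1 a = b := by
  obtain ⟨x, hx, e⟩ := exists_move (by omega) ha hb
  obtain ⟨g, hg, e'⟩ := exists_lift hf (AS_perf hs) hx
  exact ⟨g, hg, by rw [e', e]⟩

/-- A fixed vector of the cover of a point stabilizer generates a copy of the permutation module. -/
theorem exists_perm_vectors (hf : Cov f) {ρ : G →* Module.End k V} (hz : Scal f ρ) {T : Finset α}
    (hT : 7 ≤ T.card) {o : α} (ho : o ∈ T) {v : V} (hv : v ≠ 0)
    (hfix : ∀ g ∈ Yc f (AS (T.erase o)), ρ g v = v) :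
    ∃ u : α → V, (∀ g ∈ Yc f (AS T), ∀ i ∈ T, ρ g (u i) = u ((f g).1 i)) ∧ u o ≠ 0 := by
  have hcard : (T.erase o).card = T.card - 1 := card_erase_of_mem ho
  obtain ⟨a, ha⟩ : (T.erase o).Nonempty := by rw [← card_pos]; omega
  have ha' := mem_erase.mp ha
  obtain ⟨h, hh, hho⟩ := exists_move_lift hf (by omega) ho ha'.2
  set va := ρ h v with hva
  have hva0 : va ≠ 0 := rho_ne_zero ρ h hv
  have hvafix : ∀ y ∈ Yc f (AS (T.erase a)), ρ y va = va := by
    have := fix_conj (f_mem_of_Yc hh) hfix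
    rwa [hho] at this
  have hA : ∀ i : α, ∃ g : G, i ∈ T.erase o → g ∈ Yc f (AS (T.erase o)) ∧ (f g).1 a = i := by
    intro i
    by_cases hi : i ∈ T.erase o
    · obtain ⟨g, hg, e⟩ := exists_move_lift hf (by omega) ha hi
      exact ⟨g, fun _ => ⟨hg, e⟩⟩
    · exact ⟨1, fun h => absurd h hi⟩
  choose gA hgA using hA
  set u1 : α → V := fun i => ρ (gA i) va with hu1
  have wd1 : ∀ g ∈ Yc f (AS (T.erase o)), ∀ i ∈ T.erase o, (f g).1 a = i → ρ g va = u1 i := by
    intro g hg i hi e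
    exact transport_wd hf hz hT ho ha'.2 ha'.1 hv hfix hvafix hg (hgA i hi).1
      (by rw [e, (hgA i hi).2])
  have P1 : ∀ g ∈ Yc f (AS (T.erase o)), ∀ i ∈ T.erase o, ρ g (u1 i) = u1 ((f g).1 i) := by
    intro g hg i hi
    rw [hu1]
    change ρ g (ρ (gA i) va) = _
    rw [← rho_mul_apply]
    apply wd1 _ (Subgroup.mul_mem _ hg (hgA i hi).1) _ (mem_AS_map (f_mem_of_Yc hg) hi)
    rw [map_mul]
    change (f g).1 ((f (gA i)).1 a) = _
    rw [(hgA i hi).2]
  have P2 : u1 a = va := by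
    have := wd1 1 (Subgroup.one_mem _) a ha (by rw [map_one]; rfl)
    rw [← this, rho_one_apply]
  have P3 : ∀ i ∈ T.erase o, ∀ y ∈ Yc f (AS (T.erase i)), ρ y (u1 i) = u1 i := by
    intro i hi
    have := fix_conj (AS_mono (erase_subset _ _) (f_mem_of_Yc (hgA i hi).1)) hvafix
    rwa [(hgA i hi).2] at this
  obtain ⟨b, hb⟩ : ((T.erase o).erase a).Nonempty := by
    rw [← card_pos, card_erase_of_mem ha]; omega
  have hb' := mem_erase.mp hb
  have hba : b ∈ T.erase a := mem_erase.mpr ⟨hb'.1, (mem_erase.mp hb'.2).2⟩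
  have hoa : o ∈ T.erase a := mem_erase.mpr ⟨ha'.1.symm, ho⟩
  have hcarda : (T.erase a).card = T.card - 1 := card_erase_of_mem ha'.2
  obtain ⟨l, hl, hlo⟩ := exists_move_lift hf (by omega) hba hoa
  set uo := ρ l (u1 b) with huo
  set u : α → V := Function.update u1 o uo with hu
  have uo_eq : u o = uo := Function.update_self ..
  have u_ne : ∀ i, i ≠ o → u i = u1 i := fun i hi => Function.update_of_ne hi _ _
  have uofix : ∀ y ∈ Yc f (AS (T.erase o)), ρ y uo = uo := by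
    have := fix_conj (AS_mono (erase_subset _ _) (f_mem_of_Yc hl)) (P3 b hb'.2)
    rwa [hlo] at this
  have Q1 : ∀ g ∈ Yc f (AS (T.erase o)), ∀ i ∈ T, ρ g (u i) = u ((f g).1 i) := by
    intro g hg i hi
    by_cases hio : i = o
    · subst hio
      have : (f g).1 i = i := mem_AS.mp (f_mem_of_Yc hg) _ (by simp)
      rw [this, uo_eq, uofix g hg]
    · have hi' : i ∈ T.erase o := mem_erase.mpr ⟨hio, hi⟩
      have h2 := mem_AS_map (f_mem_of_Yc hg) hi'
      rw [u_ne i hio, u_ne _ (mem_erase.mp h2).1, P1 g hg i hi']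
  have Q0 : ∀ i ∈ T.erase a, ∃ g ∈ Yc f (AS (T.erase a)), (f g).1 b = i ∧ ρ g (u b) = u i := by
    intro i hi
    by_cases hio : i = o
    · subst hio
      exact ⟨l, hl, hlo, by rw [uo_eq, u_ne b (mem_erase.mp hb'.2).1]⟩
    · have hi' : i ∈ (T.erase o).erase a :=
        mem_erase.mpr ⟨(mem_erase.mp hi).1, mem_erase.mpr ⟨hio, (mem_erase.mp hi).2⟩⟩
      obtain ⟨g, hg, e⟩ := exists_move_lift hf (by rw [card_erase_of_mem ha]; omega) hb hi'
      have hg1 : g ∈ Yc f (AS (T.erase o)) := Yc_mono (AS_mono (erase_subset _ _)) hg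
      have hg2 : g ∈ Yc f (AS (T.erase a)) := by
        refine Yc_mono (AS_mono ?_) hg
        rw [erase_right_comm]
        exact erase_subset _ _
      exact ⟨g, hg2, e, by rw [Q1 g hg1 b (mem_erase.mp hb'.2).2, e]⟩
  have ubfix : ∀ y ∈ Yc f (AS (T.erase b)), ρ y (u b) = u b := by
    rw [u_ne b (mem_erase.mp hb'.2).1]; exact P3 b hb'.2
  have ua_eq : u a = va := by rw [u_ne a ha'.1, P2]
  have Q2 : ∀ g ∈ Yc f (AS (T.erase a)), ∀ i ∈ T, ρ g (u i) = u ((f g).1 i) := by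
    intro g hg i hi
    by_cases hia : i = a
    · subst hia
      have : (f g).1 i = i := mem_AS.mp (f_mem_of_Yc hg) _ (by simp)
      rw [this, ua_eq, hvafix g hg]
    · have hi' : i ∈ T.erase a := mem_erase.mpr ⟨hia, hi⟩
      obtain ⟨g1, hg1, e1, e2⟩ := Q0 i hi'
      obtain ⟨g2, hg2, e3, e4⟩ := Q0 _ (mem_AS_map (f_mem_of_Yc hg) hi')
      rw [← e2, ← e4, ← rho_mul_apply]
      refine transport_wd hf hz hT ha'.2 (mem_erase.mp hb'.2).2 hb'.1 hva0 hvafix ubfix
        (Subgroup.mul_mem _ hg hg1) hg2 ?_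
      rw [e3, map_mul]
      change (f g).1 ((f g1).1 b) = _
      rw [e1]
  let P : Subgroup G :=
    { carrier := {g | f g ∈ AS T ∧ ∀ i ∈ T, ρ g (u i) = u ((f g).1 i)}
      one_mem' := ⟨by rw [map_one]; exact Subgroup.one_mem _, fun i _ => by
        rw [map_one f, rho_one_apply]; rfl⟩
      mul_mem' := by
        rintro x y ⟨hx1, hx2⟩ ⟨hy1, hy2⟩
        refine ⟨by rw [map_mul]; exact Subgroup.mul_mem _ hx1 hy1, fun i hi => ?_⟩
        rw [rho_mul_apply, hy2 i hi, hx2 _ (mem_AS_map hy1 hi), map_mul f]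
        rfl
      inv_mem' := by
        rintro x ⟨hx1, hx2⟩
        refine ⟨by rw [map_inv]; exact Subgroup.inv_mem _ hx1, fun i hi => ?_⟩
        have h1 : (f x⁻¹).1 i ∈ T :=
          mem_AS_map (by rw [map_inv]; exact Subgroup.inv_mem _ hx1) hi
        have h2 := hx2 _ h1
        have h3 : (f x).1 ((f x⁻¹).1 i) = i := by
          rw [map_inv]
          change (f x).1 ((f x).1⁻¹ i) = i
          simp
        rw [h3] at h2
        rw [← h2, rho_inv_self] }
  have hP1 : Yc f (AS (T.erase o)) ≤ P := fun g hg =>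
    ⟨AS_mono (erase_subset _ _) (f_mem_of_Yc hg), Q1 g hg⟩
  have hP2 : Yc f (AS (T.erase a)) ≤ P := fun g hg =>
    ⟨AS_mono (erase_subset _ _) (f_mem_of_Yc hg), Q2 g hg⟩
  have hPT : AS T ≤ P.map f := by
    obtain ⟨x, hx, e⟩ := exists_move (s := T.erase a) (by omega) hoa hba
    refine gen_AS (by omega) ho (X := P.map f) ?_ (x := x) ?_ (AS_mono (erase_subset _ _) hx) ?_
    · rw [← map_Yc hf (AS_perf (s := T.erase o) (by omega))]
      exact Subgroup.map_mono hP1
    · have : x ∈ (Yc f (AS (T.erase a))).map f := by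
        rw [map_Yc hf (AS_perf (s := T.erase a) (by omega))]; exact hx
      exact Subgroup.map_mono hP2 this
    · rw [e]; exact (mem_erase.mp hb'.2).1
  refine ⟨u, fun g hg => ((Yc_le_of hf hPT) hg).2, ?_⟩
  rw [uo_eq, huo]
  apply rho_ne_zero
  rw [hu1]
  exact rho_ne_zero ρ _ hva0

end Cfsg.Agent.AltS
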