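import Cfsg.Agent.AltS.Ind

set_option autoImplicit false

open scoped commutatorElement

namespace Cfsg.Agent.AltS

open Module

/-- `f : G → Alt(α)` is a surjection not surjective on any proper subgroup. -/
structure Mn {G α : Type*} [Group G] [Fintype α] [DecidableEq α] (f : G →* alternatingGroup α) :
    Prop where
  surj : Function.Surjective f
  min : ∀ L : Subgroup G, L.map f = ⊤ → L = ⊤

section
variable {k V G α : Type*} [Field k] [AddCommGroup V] [Module k V] [Group G]
  [Fintype α] [DecidableEq α] {f : G →* alternatingGroup α} {ρ : G →* Module.End k V}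

theorem Mn.perf (hf : Mn f) (hα : 5 ≤ Fintype.card α) :
    ⁅(⊤ : Subgroup G), (⊤ : Subgroup G)⁆ = (⊤ : Subgroup G) := by
  apply hf.min
  rw [Subgroup.map_commutator, Subgroup.map_top_of_surjective _ hf.surj, ← commutator_def]
  exact commutator_alternatingGroup_eq_top (by rw [Nat.card_eq_fintype_card]; exact hα)

theorem Mn.normal (hf : Mn f) (hα : 5 ≤ Fintype.card α) (N : Subgroup G) (hN : N.Normal) :
    N = ⊤ ∨ N ≤ f.ker := by
  have h1 : (N.map f).Normal := hN.map f hf.surj
  have hA : IsSimpleGroup (alternatingGroup α) :=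
    alternatingGroup.isSimpleGroup (by rw [Nat.card_eq_fintype_card]; exact hα)
  rcases hA.eq_bot_or_eq_top_of_normal _ h1 with h | h
  · right
    rwa [Subgroup.map_eq_bot_iff] at h
  · left
    exact hf.min N h

/-- no nontrivial action on fewer than `r` points. -/
theorem Mn.no_small [Finite G] (hf : Mn f) (hα : 5 ≤ Fintype.card α) {X : Type*} [Fintype X]
    [DecidableEq X] (hX : Fintype.card X < Fintype.card α) (φ : G →* Equiv.Perm X) (g : G) :
    φ g = 1 := by
  rcases hf.normal hα φ.ker inferInstance with h | h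
  · have : g ∈ φ.ker := by rw [h]; trivial
    exact this
  · exfalso
    have h1 : Nat.card (alternatingGroup α) = f.ker.index := by
      rw [Subgroup.index_ker, MonoidHom.range_eq_top.mpr hf.surj]
      exact (Nat.card_congr (Subgroup.topEquiv (G := alternatingGroup α)).toEquiv).symm
    have h2 : f.ker.index ≤ φ.ker.index :=
      Nat.le_of_dvd (Nat.pos_of_ne_zero Subgroup.index_ne_zero_of_finite)
        (Subgroup.index_dvd_of_le h)
    have h3 : φ.ker.index ≤ (Fintype.card X).factorial := by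
      rw [Subgroup.index_ker, ← Fintype.card_perm, ← Nat.card_eq_fintype_card]
      exact Subgroup.card_le_card_group _
    have hnt : Nontrivial α := Fintype.one_lt_card_iff_nontrivial.mp (by omega)
    have h4 := two_mul_nat_card_alternatingGroup (α := α)
    rw [Nat.card_perm, Nat.card_eq_fintype_card (α := α)] at h4
    have h5 : (Fintype.card X).factorial ≤ (Fintype.card α - 1).factorial :=
      Nat.factorial_le (by omega)
    have h6 : (Fintype.card α).factorial = Fintype.card α * (Fintype.card α - 1).factorial :=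
      (Nat.mul_factorial_pred (by omega)).symm
    have h7 := Nat.factorial_pos (Fintype.card α - 1)
    have h8 : Fintype.card α * (Fintype.card α - 1).factorial ≤
        2 * (Fintype.card α - 1).factorial := by
      rw [← h6, ← h4]
      omega
    have := Nat.le_of_mul_le_mul_right h8 h7
    omega

/-- abelian normal subgroups act by scalars. -/
theorem Mn.abelian_scalar [IsAlgClosed k] [FiniteDimensional k V] [Finite G] [Nontrivial V]
    (hf : Mn f) (hα : 5 ≤ Fintype.card α)
    (hirr : IrrOn ρ ⊤) (hn : finrank k V < Fintype.card α) (N : Subgroup G) (hN : N.Normal)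
    (hab : ∀ x ∈ N, ∀ y ∈ N, x * y = y * x) : ∀ x ∈ N, ∃ c : k, ∀ v, ρ x v = c • v := by
  classical
  let X := {χ : N → k // ∃ v : V, v ≠ 0 ∧ ∀ x : N, ρ x v = χ x • v}
  choose vv hvv0 hvv using fun χ : X => χ.2
  have hli : LinearIndependent k vv :=
    li_of_weights (fun x : N => ρ x) vv (fun χ => χ.1) Subtype.val_injective hvv0
      (fun x χ => hvv χ x)
  have : Finite X := hli.finite_of_isNoetherian
  have : Fintype X := Fintype.ofFinite X
  have hcard : Fintype.card X < Fintype.card α :=
    (hli.fintype_card_le_finrank).trans_lt hn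
  let cg : G → N → N := fun g x => ⟨g⁻¹ * x * g⁻¹⁻¹, hN.conj_mem x.1 x.2 g⁻¹⟩
  have hw : ∀ (g : G) (χ : N → k) (v : V), (∀ x : N, ρ x v = χ x • v) →
      ∀ x : N, ρ x (ρ g v) = χ (cg g x) • ρ g v := by
    intro g χ v h x
    rw [← map_smul, ← h (cg g x), ← rho_mul_apply, ← rho_mul_apply]
    congr 2
    simp only [cg]
    group
  let act : G → X → X := fun g χ => ⟨fun x => χ.1 (cg g x), ρ g (vv χ), rho_ne_zero ρ g (hvv0 χ),
    hw g χ.1 (vv χ) (hvv χ)⟩
  have hcg1 : ∀ x, cg 1 x = x := by
    intro x; apply Subtype.ext; simp [cg]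
  have hcgm : ∀ a b x, cg b (cg a x) = cg (a * b) x := by
    intro a b x; apply Subtype.ext; simp only [cg]; group
  letI : MulAction G X :=
    { smul := act
      one_smul := by
        intro χ
        apply Subtype.ext
        funext x
        change χ.1 (cg 1 x) = χ.1 x
        rw [hcg1]
      mul_smul := by
        intro a b χ
        apply Subtype.ext
        funext x
        change χ.1 (cg (a * b) x) = χ.1 (cg b (cg a x))
        rw [hcgm] }
  have htriv : ∀ (g : G) (χ : X), g • χ = χ := by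
    intro g χ
    have := hf.no_small hα hcard (MulAction.toPermHom G X) g
    exact congrArg (fun σ : Equiv.Perm X => σ χ) this
  obtain ⟨v, _, hv0, hv⟩ := exists_common_eig (fun x : N => ρ x) (fun a b v => by
    rw [← rho_mul_apply, ← rho_mul_apply, hab a a.2 b b.2]) (⊤ : Submodule k V) top_ne_bot
    (fun _ _ _ => trivial)
  choose χ0 hχ0 using hv
  let χ : X := ⟨χ0, v, hv0, hχ0⟩
  have hχfix : ∀ (g : G) (x : N), χ0 (cg g x) = χ0 x := by
    intro g x
    have := congrArg (fun χ : X => χ.1 x) (htriv g χ)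
    exact this
  let W : Submodule k V :=
    { carrier := {v | ∀ x : N, ρ x v = χ0 x • v}
      add_mem' := by
        intro a b ha hb x
        rw [map_add, ha x, hb x, smul_add]
      zero_mem' := by intro x; simp
      smul_mem' := by
        intro c a ha x
        rw [map_smul, ha x, smul_comm] }
  have hWinv : Inv ρ ⊤ W := by
    intro g _ v hv x
    rw [hw g χ0 v hv x, hχfix]
  have hWt : W = ⊤ := by
    refine (hirr W hWinv).resolve_left ?_
    intro h
    have : v ∈ W := hχ0
    rw [h, Submodule.mem_bot] at this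
    exact hv0 this
  intro x hx
  refine ⟨χ0 ⟨x, hx⟩, fun v => ?_⟩
  have : v ∈ W := by rw [hWt]; trivial
  exact this ⟨x, hx⟩

theorem mem_center_of_scalar (hinj : Function.Injective ρ) {x : G}
    (h : ∃ c : k, ∀ v, ρ x v = c • v) : x ∈ Subgroup.center G := by
  rw [Subgroup.mem_center_iff]
  intro g
  obtain ⟨c, hc⟩ := h
  apply hinj
  ext v
  rw [rho_mul_apply, rho_mul_apply, hc, hc, map_smul]

/-- the order of a central-by-abelian section. -/
theorem card_le_sq [IsAlgClosed k] [FiniteDimensional k V] [Finite G] [Nontrivial V]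
    (hinj : Function.Injective ρ) (hirr : IrrOn ρ ⊤) (Z0 : Subgroup G) [hZn : Z0.Normal]
    (hZ : Z0 ≤ Subgroup.center G) (Q : Subgroup (G ⧸ Z0))
    (hQab : ∀ x ∈ Q, ∀ y ∈ Q, x * y = y * x)
    (hQc : ∀ t : G, (t : G ⧸ Z0) ∈ Q → (∀ s : G, (s : G ⧸ Z0) ∈ Q → s * t = t * s) → t ∈ Z0) :
    Nat.card Q ≤ finrank k V * finrank k V := by
  classical
  have : Fintype Q := Fintype.ofFinite Q
  have hsc : ∀ z ∈ Z0, ∃ c : k, ρ z = c • 1 := by
    intro z hz
    obtain ⟨c, hc⟩ := schur ρ ⊤ hirr (ρ z) (by
      intro h _ v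
      rw [← rho_mul_apply, ← rho_mul_apply, Subgroup.mem_center_iff.mp (hZ hz) h])
    exact ⟨c, by ext v; rw [hc]; rfl⟩
  have hrep : ∀ q : Q, ∃ t : G, (t : G ⧸ Z0) = q := fun q =>
    QuotientGroup.mk_surjective q.1
  choose t ht using hrep
  let M := {s : G // (s : G ⧸ Z0) ∈ Q}
  have hcomm : ∀ (s : M) (q : Q), ⁅(s : G), t q⁆ ∈ Z0 := by
    intro s q
    rw [← QuotientGroup.eq_one_iff]
    have h1 : ((⁅(s : G), t q⁆ : G) : G ⧸ Z0) = ⁅((s : G) : G ⧸ Z0), (t q : G ⧸ Z0)⁆ := rfl
    rw [h1, commutatorElement_eq_one_iff_mul_comm]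
    exact hQab _ s.2 _ (by rw [ht]; exact q.2)
  choose c hc using fun (s : M) (q : Q) => hsc _ (hcomm s q)
  let T : M → Module.End k (Module.End k V) := fun s =>
    { toFun := fun X => cj ρ (s : G) X
      map_add' := by intro X Y; simp only [cj]; rw [mul_add, add_mul]
      map_smul' := by intro a X; simp only [RingHom.id_apply]; rw [cj_smul] }
  have h1 := card_le_of_weights T (fun q : Q => ρ (t q)) (fun q s => c s q) ?_ ?_ ?_
  · rw [Nat.card_eq_fintype_card]
    rwa [Module.finrank_linearMap] at h1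
  · intro q q' h
    have h2 : ∀ s : M, ⁅(s : G), t q⁆ = ⁅(s : G), t q'⁆ := by
      intro s
      apply hinj
      rw [hc, hc]
      exact congrArg (fun x : k => x • (1 : Module.End k V)) (congrFun h s)
    have h3 : (t q')⁻¹ * t q ∈ Z0 := by
      apply hQc
      · rw [QuotientGroup.mk_mul, QuotientGroup.mk_inv, ht, ht]
        exact Q.mul_mem (Q.inv_mem q'.2) q.2
      · intro s hs
        have h4 := h2 ⟨s, hs⟩
        have h5 : ∀ x : G, s * x * s⁻¹ = ⁅s, x⁆ * x := by
          intro x; rw [commutatorElement_def]; group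
        have hz := Subgroup.mem_center_iff.mp (hZ (hcomm ⟨s, hs⟩ q))
        have h6 : s * ((t q')⁻¹ * t q) * s⁻¹ = (t q')⁻¹ * t q := by
          calc s * ((t q')⁻¹ * t q) * s⁻¹ = (s * t q' * s⁻¹)⁻¹ * (s * t q * s⁻¹) := by group
            _ = (⁅s, t q⁆ * t q')⁻¹ * (⁅s, t q⁆ * t q) := by rw [h5, h5, ← h4]
            _ = (t q')⁻¹ * t q := by group
        calc s * ((t q')⁻¹ * t q) = (s * ((t q')⁻¹ * t q) * s⁻¹) * s := by group
          _ = (t q')⁻¹ * t q * s := by rw [h6]
    have h7 : (t q' : G ⧸ Z0) = t q := QuotientGroup.eq.mpr h3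
    rw [ht, ht] at h7
    exact (Subtype.ext h7).symm
  · intro q h
    have := rr ρ (t q)
    rw [h, zero_mul] at this
    exact zero_ne_one this
  · intro s q
    change cj ρ (s : G) (ρ (t q)) = c s q • ρ (t q)
    rw [cj_rho]
    have h5 : (s : G) * t q * (s : G)⁻¹ = ⁅(s : G), t q⁆ * t q := by
      rw [commutatorElement_def]; group
    rw [h5, map_mul, hc, smul_mul_assoc, one_mul]

/-- the conjugation action on `Q` is nontrivial. -/
theorem conj_nontrivial (hperf : ⁅(⊤ : Subgroup G), (⊤ : Subgroup G)⁆ = (⊤ : Subgroup G))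
    (Z0 : Subgroup G) [hZn : Z0.Normal] (hZ : Z0 ≤ Subgroup.center G) {t : G}
    (h : ∀ g : G, (g : G ⧸ Z0) * t = t * g) : t ∈ Subgroup.center G := by
  have hcz : ∀ g : G, ⁅g, t⁆ ∈ Subgroup.center G := by
    intro g
    apply hZ
    rw [← QuotientGroup.eq_one_iff]
    have h1 : ((⁅g, t⁆ : G) : G ⧸ Z0) = ⁅(g : G ⧸ Z0), (t : G ⧸ Z0)⁆ := rfl
    rw [h1, commutatorElement_eq_one_iff_mul_comm]
    exact h g
  have hle : (⊤ : Subgroup G) ≤ Subgroup.centralizer {t} := by
    rw [← hperf, Subgroup.commutator_le]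
    intro a _ b _
    rw [Subgroup.mem_centralizer_iff]
    intro x hx
    rw [Set.mem_singleton_iff] at hx
    subst hx
    have key : ∀ a : G, x * a * x⁻¹ = a * (⁅a, x⁆)⁻¹ := by
      intro a
      have hz := Subgroup.mem_center_iff.mp ((Subgroup.center G).inv_mem (hcz a)) a
      rw [hz, commutatorElement_def]
      group
    have e3 : x * ⁅a, b⁆ * x⁻¹ = ⁅a, b⁆ := by
      have : x * ⁅a, b⁆ * x⁻¹ = ⁅x * a * x⁻¹, x * b * x⁻¹⁆ := by
        rw [commutatorElement_def, commutatorElement_def]; group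
      rw [this, key a, key b]
      exact comm_central
        (fun g => (Subgroup.mem_center_iff.mp ((Subgroup.center G).inv_mem (hcz a)) g).symm)
        (fun g => (Subgroup.mem_center_iff.mp ((Subgroup.center G).inv_mem (hcz b)) g).symm) a b
    calc x * ⁅a, b⁆ = (x * ⁅a, b⁆ * x⁻¹) * x := by group
      _ = ⁅a, b⁆ * x := by rw [e3]
  rw [Subgroup.mem_center_iff]
  intro g
  exact (Subgroup.mem_centralizer_iff.mp (hle (Subgroup.mem_top g)) t rfl).symm

end

end Cfsg.Agent.AltS
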