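import Cfsg.Agent.AltS.RedA
import Cfsg.Agent.H57.SpecSemi

set_option autoImplicit false

open scoped commutatorElement

namespace Cfsg.Agent.AltS

open Module

theorem exists_matrix_add {G A : Type} [Group G] [AddCommGroup A] [Finite A] {s : ℕ}
    [hs : Fact s.Prime] [Module (ZMod s) A] (φ : G →* AddMonoid.End A) :
    ∃ (m : ℕ) (μ : G →* Matrix (Fin m) (Fin m) (ZMod s)), Nat.card A = s ^ m ∧
      ∀ g, μ g = 1 → ∀ x, φ g x = x := by
  classical
  let L : G →* Module.End (ZMod s) A :=
    { toFun := fun g => (φ g).toZModLinearMap s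
      map_one' := by
        refine LinearMap.ext fun x => ?_
        change φ 1 x = x
        rw [map_one]
        rfl
      map_mul' := by
        intro a b
        refine LinearMap.ext fun x => ?_
        change φ (a * b) x = φ a (φ b x)
        rw [map_mul]
        rfl }
  have hL : ∀ g (q : A), L g q = φ g q := fun g q => rfl
  let b := Module.finBasis (ZMod s) A
  refine ⟨finrank (ZMod s) A,
    ((LinearMap.toMatrixAlgEquiv b : _ ≃ₐ[ZMod s] _).toRingEquiv.toMonoidHom).comp L, ?_, ?_⟩
  · have h1 := Module.natCard_eq_pow_finrank (K := ZMod s) (V := A)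
    rw [Nat.card_zmod] at h1
    exact h1
  · intro g hg x
    have h1 : L g = 1 := by
      apply (LinearMap.toMatrixAlgEquiv b : _ ≃ₐ[ZMod s] _).injective
      rw [map_one]
      exact hg
    have h2 := hL g x
    rw [h1] at h2
    exact h2.symm

theorem exists_matrix_comm {G A : Type} [Group G] [CommGroup A] [Finite A] {s : ℕ}
    [hs : Fact s.Prime] (hA : ∀ x : A, x ^ s = 1) (φ : G →* MulAut A) :
    ∃ (m : ℕ) (μ : G →* Matrix (Fin m) (Fin m) (ZMod s)), Nat.card A = s ^ m ∧
      ∀ g, μ g = 1 → ∀ x, φ g x = x := by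
  have imod : Module (ZMod s) (Additive A) := AddCommGroup.zmodModule (n := s) (by
    intro x
    change Additive.ofMul ((Additive.toMul x) ^ s) = 0
    rw [hA]
    rfl)
  let ψ : G →* AddMonoid.End (Additive A) :=
    { toFun := fun g => MonoidHom.toAdditive (φ g).toMonoidHom
      map_one' := by rw [map_one]; rfl
      map_mul' := fun a b => by rw [map_mul]; rfl }
  exact exists_matrix_add (s := s) ψ

/-- the matrices of the conjugation action on an elementary abelian normal section. -/
theorem exists_matrix {G : Type} [Group G] [Finite G] (Z0 : Subgroup G) [hZn : Z0.Normal]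
    (Q : Subgroup (G ⧸ Z0)) [hQn : Q.Normal] (hQab : ∀ x ∈ Q, ∀ y ∈ Q, x * y = y * x) {s : ℕ}
    [hs : Fact s.Prime] (hQs : ∀ x ∈ Q, x ^ s = 1) :
    ∃ (m : ℕ) (μ : G →* Matrix (Fin m) (Fin m) (ZMod s)), Nat.card Q = s ^ m ∧
      ∀ g, μ g = 1 → ∀ q ∈ Q, (g : G ⧸ Z0) * q = q * g := by
  let cg : CommGroup Q :=
    { (inferInstance : Group Q) with
      mul_comm := fun a b => Subtype.ext (hQab a a.2 b b.2) }
  obtain ⟨m, μ, h1, h2⟩ := @exists_matrix_comm G Q _ cg _ s hs (fun x => Subtype.ext (hQs x x.2))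
    ((MulAut.conjNormal (H := Q)).comp (QuotientGroup.mk' Z0))
  refine ⟨m, μ, h1, fun g hg q hq => ?_⟩
  have h4 : (g : G ⧸ Z0) * q * (g : G ⧸ Z0)⁻¹ = q := congrArg Subtype.val (h2 g hg ⟨q, hq⟩)
  calc (g : G ⧸ Z0) * q = ((g : G ⧸ Z0) * q * (g : G ⧸ Z0)⁻¹) * g := by group
    _ = q * g := by rw [h4]

theorem sq_lt_two_pow : ∀ m : ℕ, 5 ≤ m → m * m < 2 ^ m := by
  intro m hm
  induction m, hm using Nat.le_induction with
  | base => norm_num
  | succ m hm ih =>
    rw [pow_succ]
    nlinarith

/-- matrices over the algebraic closure as operators. -/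
noncomputable def matRep {G : Type} [Group G] {m s : ℕ} [Fact s.Prime]
    (μ : G →* Matrix (Fin m) (Fin m) (ZMod s)) :
    G →* Module.End (AlgebraicClosure (ZMod s)) (Fin m → AlgebraicClosure (ZMod s)) :=
  ((Matrix.toLinAlgEquiv' (R := AlgebraicClosure (ZMod s)) (n := Fin m)).toRingEquiv.toMonoidHom).comp
    (((algebraMap (ZMod s) (AlgebraicClosure (ZMod s))).mapMatrix.toMonoidHom).comp μ)

theorem matRep_eq_one {G : Type} [Group G] {m s : ℕ} [Fact s.Prime]
    (μ : G →* Matrix (Fin m) (Fin m) (ZMod s)) {g : G} (h : matRep μ g = 1) : μ g = 1 := by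
  have h1 : (algebraMap (ZMod s) (AlgebraicClosure (ZMod s))).mapMatrix (μ g) = 1 := by
    apply (Matrix.toLinAlgEquiv' (R := AlgebraicClosure (ZMod s)) (n := Fin m)).injective
    rw [map_one]
    exact h
  have h2 : Function.Injective
      ((algebraMap (ZMod s) (AlgebraicClosure (ZMod s))).mapMatrix (m := Fin m)) :=
    Matrix.map_injective (algebraMap (ZMod s) (AlgebraicClosure (ZMod s))).injective
  exact h2 (by rw [h1, map_one])

theorem ft_main : ∀ (n N : ℕ) (k : Type) [Field k] [IsAlgClosed k] (r : ℕ), 9 ≤ r →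
    ∀ (G : Type) [Group G] [Finite G] (f : G →* alternatingGroup (Fin r)),
      Function.Surjective f → ∀ (V : Type) [AddCommGroup V] [Module k V] [FiniteDimensional k V]
        (ρ : G →* Module.End k V), finrank k V = n → Nat.card G = N →
        (∀ g, ρ g = 1 → f g = 1) → dd k r ≤ n := by
  intro n
  induction n using Nat.strong_induction_on with
  | _ n ihn =>
  intro N
  induction N using Nat.strong_induction_on with
  | _ N ihN =>
  intro k _ _ r hr G _ _ f hsurj V _ _ _ ρ hn hN hker
  have hcard : Fintype.card (Fin r) = r := Fintype.card_fin r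
  have hα : 5 ≤ Fintype.card (Fin r) := by rw [hcard]; omega
  by_cases hmin : ∃ L : Subgroup G, L.map f = ⊤ ∧ L ≠ ⊤
  · obtain ⟨L, hL, hLt⟩ := hmin
    have hlt : Nat.card L < N := by
      rw [← hN]
      exact lt_of_le_of_ne (Subgroup.card_le_card_group L)
        (fun h => hLt (Subgroup.card_eq_iff_eq_top L |>.mp h))
    refine ihN _ hlt k r hr L (f.comp L.subtype) ?_ V (ρ.comp L.subtype) hn rfl
      (fun g hg => hker g hg)
    intro a
    have : a ∈ L.map f := by rw [hL]; trivial
    obtain ⟨g, hg, e⟩ := this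
    exact ⟨⟨g, hg⟩, e⟩
  have hf : Mn f := ⟨hsurj, fun L hL => by
    by_contra h
    exact hmin ⟨L, hL, h⟩⟩
  obtain ⟨x0, hx0⟩ := exists_ne_one (α := Fin r) hα
  obtain ⟨g0, hg0⟩ := hsurj x0
  have hρ : ∃ g, ρ g ≠ 1 := ⟨g0, fun h => hx0 (by rw [← hg0, hker g0 h])⟩
  obtain ⟨W, i1, i2, i3, σ, hWn, hirr, hnt, hkσ⟩ := exists_irr (hf.perf hα) _ V ρ rfl hρ
  have hkerσ : ∀ g, σ g = 1 → f g = 1 := by
    have hmem : ∀ g, g ∈ (σ.toHomUnits).ker ↔ σ g = 1 := by
      intro g
      rw [MonoidHom.mem_ker, Units.ext_iff]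
      rfl
    rcases hf.normal hα (σ.toHomUnits).ker inferInstance with h | h
    · obtain ⟨g, hg⟩ := hnt
      exact absurd ((hmem g).mp (by rw [h]; trivial)) hg
    · intro g hg
      exact h ((hmem g).mpr hg)
  rw [hn] at hWn
  rcases Nat.lt_or_ge (finrank k W) n with hlt | hge
  · exact (ihn _ hlt _ k r hr G f hsurj W σ rfl rfl hkerσ).trans hlt.le
  have hWn' : finrank k W = n := le_antisymm hWn hge
  by_cases hinj : Function.Injective σ
  swap
  · -- pass to the image
    have hinj' : ¬ Function.Injective σ.toHomUnits := by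
      intro h
      apply hinj
      intro a b hab
      apply h
      ext1
      exact hab
    have hK : (σ.toHomUnits).ker ≠ ⊥ := fun h => hinj' ((MonoidHom.ker_eq_bot_iff _).mp h)
    have hle : (σ.toHomUnits).ker ≤ f.ker := by
      intro g hg
      apply hkerσ
      rw [MonoidHom.mem_ker, Units.ext_iff] at hg
      exact hg
    have hlt : Nat.card (G ⧸ (σ.toHomUnits).ker) < N := by
      rw [← hN, Subgroup.card_eq_card_quotient_mul_card_subgroup (σ.toHomUnits).ker]
      have h1 : 1 < Nat.card (σ.toHomUnits).ker := (Subgroup.one_lt_card_iff_ne_bot _).mpr hK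
      have h2 : 0 < Nat.card (G ⧸ (σ.toHomUnits).ker) := Nat.card_pos
      nlinarith
    refine ihN _ hlt k r hr (G ⧸ (σ.toHomUnits).ker) (QuotientGroup.lift _ f hle) ?_ W
      ((Units.coeHom (Module.End k W)).comp (QuotientGroup.kerLift σ.toHomUnits)) hWn' rfl ?_
    · intro a
      obtain ⟨g, hg⟩ := hsurj a
      exact ⟨QuotientGroup.mk g, hg⟩
    · intro g hg
      obtain ⟨g, rfl⟩ := QuotientGroup.mk_surjective g
      exact hkerσ g hg
  have hWnt : Nontrivial W := by
    by_contra h
    rw [not_nontrivial_iff_subsingleton] at h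
    obtain ⟨g, hg⟩ := hnt
    exact hg (LinearMap.ext fun v => Subsingleton.elim _ _)
  by_contra hcon
  push Not at hcon
  have hdd := dd_le (k := k) r
  by_cases hcen : f.ker ≤ Subgroup.center G
  · have hcov : Cov f := ⟨hsurj, fun z hz g =>
      (Subgroup.mem_center_iff.mp (hcen hz) g).symm, hf.perf hα⟩
    have := rb_main (k := k) r hr (Fin r) hcard G f hcov W σ hnt
    omega
  set Z0 : Subgroup G := f.ker ⊓ Subgroup.center G with hZ0
  have hZc : Z0 ≤ Subgroup.center G := inf_le_right
  have hZn : Z0.Normal := inferInstance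
  -- the kernel is nilpotent
  have hfr : f.ker ≤ frattini G := by
    rw [frattini, Order.radical]
    refine le_iInf₂ fun M hM => ?_
    by_contra hle
    have hsup : M ⊔ f.ker = ⊤ := hM.2 _ (lt_of_le_of_ne le_sup_left (fun h => hle (by
      rw [h]; exact le_sup_right)))
    apply hM.1
    apply hf.min
    have h1 := congrArg (Subgroup.map f) hsup
    rw [Subgroup.map_sup, (Subgroup.map_eq_bot_iff _).mpr le_rfl, sup_bot_eq,
      Subgroup.map_top_of_surjective _ hsurj] at h1
    exact h1
  have hsolK : Group.IsSolvable f.ker := by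
    have h1 : Group.IsNilpotent (frattini G) := frattini_nilpotent
    have h2 : Group.IsSolvable (frattini G) := inferInstance
    exact Group.isSolvable_of_isSolvable_injective (Subgroup.inclusion_injective hfr)
  set Kb : Subgroup (G ⧸ Z0) := f.ker.map (QuotientGroup.mk' Z0) with hKb
  have hKbn : Kb.Normal := Subgroup.Normal.map inferInstance _ (QuotientGroup.mk'_surjective Z0)
  have hKb1 : Kb ≠ ⊥ := by
    intro h
    rw [hKb, Subgroup.map_eq_bot_iff, QuotientGroup.ker_mk'] at h
    exact hcen (h.trans hZc)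
  have hKbs : Group.IsSolvable Kb := by
    exact Group.isSolvable_of_surjective
      ((QuotientGroup.mk' Z0).subgroupMap_surjective f.ker)
  obtain ⟨Q, s, hQn, hQ1, hQK, hs, hQs, hQab⟩ :=
    H57.exists_normal_prime_exponent Kb hKb1 hKbs
  have hsf : Fact s.Prime := ⟨hs⟩
  have hmemK : ∀ t : G, (t : G ⧸ Z0) ∈ Q → t ∈ f.ker := by
    intro t ht
    obtain ⟨x, hx, e⟩ := hQK ht
    have h1 : x⁻¹ * t ∈ Z0 := QuotientGroup.eq.mp e
    have h2 : t = x * (x⁻¹ * t) := by group
    rw [h2]
    exact f.ker.mul_mem hx h1.1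
  have hn1 : finrank k W < Fintype.card (Fin r) := by rw [hcard]; omega
  have hQc : ∀ t : G, (t : G ⧸ Z0) ∈ Q →
      (∀ s : G, (s : G ⧸ Z0) ∈ Q → s * t = t * s) → t ∈ Z0 := by
    intro t ht hcomm
    refine ⟨hmemK t ht, ?_⟩
    let N : Subgroup G :=
      { carrier := {t | (t : G ⧸ Z0) ∈ Q ∧ ∀ s : G, (s : G ⧸ Z0) ∈ Q → s * t = t * s}
        one_mem' := ⟨Q.one_mem, fun s _ => by rw [mul_one, one_mul]⟩
        mul_mem' := by
          rintro a b ⟨ha, ha'⟩ ⟨hb, hb'⟩
          refine ⟨Q.mul_mem ha hb, fun s hs => ?_⟩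
          rw [← mul_assoc, ha' s hs, mul_assoc, hb' s hs, mul_assoc]
        inv_mem' := by
          rintro a ⟨ha, ha'⟩
          refine ⟨Q.inv_mem ha, fun s hs => ?_⟩
          have := ha' s hs
          calc s * a⁻¹ = a⁻¹ * (a * s) * a⁻¹ := by group
            _ = a⁻¹ * s := by rw [← this]; group }
    have hNn : N.Normal := by
      constructor
      rintro a ⟨ha, ha'⟩ g
      refine ⟨by
        have := hQn.conj_mem _ ha (g : G ⧸ Z0)
        exact this, fun s hs => ?_⟩
      have h1 := ha' (g⁻¹ * s * g) (by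
        have := hQn.conj_mem _ hs (g : G ⧸ Z0)⁻¹
        rwa [inv_inv] at this)
      calc s * (g * a * g⁻¹) = g * ((g⁻¹ * s * g) * a) * g⁻¹ := by group
        _ = g * a * g⁻¹ * s := by rw [h1]; group
    exact mem_center_of_scalar hinj (hf.abelian_scalar hα hirr hn1 N hNn
      (fun x hx y hy => (hy.2 x hx.1)) t ⟨ht, hcomm⟩)
  have hQcard := card_le_sq hinj hirr Z0 hZc Q hQab hQc
  rw [hWn'] at hQcard
  obtain ⟨m, μ, hm, hμ⟩ := exists_matrix Z0 Q hQab hQs
  have hkerμ : ∀ g, μ g = 1 → f g = 1 := by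
    have hmem : ∀ g, g ∈ (μ.toHomUnits).ker ↔ μ g = 1 := by
      intro g
      rw [MonoidHom.mem_ker, Units.ext_iff]
      rfl
    rcases hf.normal hα (μ.toHomUnits).ker inferInstance with h | h
    · exfalso
      apply hQ1
      rw [Subgroup.eq_bot_iff_forall]
      intro q hq
      obtain ⟨t, rfl⟩ := QuotientGroup.mk_surjective q
      have h1 : ∀ g : G, (g : G ⧸ Z0) * t = t * g := fun g =>
        hμ g ((hmem g).mp (by rw [h]; trivial)) _ hq
      have h2 := conj_nontrivial (hf.perf hα) Z0 hZc h1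
      exact (QuotientGroup.eq_one_iff t).mpr ⟨hmemK t hq, h2⟩
    · intro g hg
      exact h ((hmem g).mpr hg)
  rw [hm] at hQcard
  have h2s : 2 ^ m ≤ s ^ m := Nat.pow_le_pow_left hs.two_le m
  rcases Nat.lt_or_ge m n with hmn | hmn
  · have h1 := ihn m hmn (Nat.card G) (AlgebraicClosure (ZMod s)) r hr G f hsurj
      (Fin m → AlgebraicClosure (ZMod s)) (matRep μ) (by simp) rfl
      (fun g hg => hkerμ g (matRep_eq_one μ hg))
    have h2 := dd_ge (k := AlgebraicClosure (ZMod s)) r
    have h3 : 2 ^ (r - 2) ≤ 2 ^ m := Nat.pow_le_pow_right (by norm_num) (by omega)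
    have h4 := sq_lt_two_pow (r - 2) (by omega)
    have h5 : n * n ≤ (r - 2) * (r - 2) := Nat.mul_le_mul (by omega) (by omega)
    omega
  · have h4 : m ≤ 4 := by
      by_contra h
      have h5 := sq_lt_two_pow m (by omega)
      have h6 : n * n ≤ m * m := Nat.mul_le_mul hmn hmn
      omega
    have h6 : s ^ m ≤ 16 := hQcard.trans (by nlinarith)
    have h7 : f.ker.index ≤ (μ.toHomUnits).ker.index :=
      Nat.le_of_dvd (Nat.pos_of_ne_zero Subgroup.index_ne_zero_of_finite)
        (Subgroup.index_dvd_of_le (fun g hg => hkerμ g (by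
          rw [MonoidHom.mem_ker, Units.ext_iff] at hg
          exact hg)))
    have h8 : Nat.card (alternatingGroup (Fin r)) = f.ker.index := by
      rw [Subgroup.index_ker, MonoidHom.range_eq_top.mpr hsurj]
      exact (Nat.card_congr (Subgroup.topEquiv (G := alternatingGroup (Fin r))).toEquiv).symm
    have h9 : (μ.toHomUnits).ker.index ≤ 16 ^ 4 := by
      rw [Subgroup.index_ker]
      calc Nat.card (μ.toHomUnits).range ≤ Nat.card (Matrix (Fin m) (Fin m) (ZMod s))ˣ :=
            Subgroup.card_le_card_group _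
        _ ≤ Nat.card (Matrix (Fin m) (Fin m) (ZMod s)) :=
            Nat.card_le_card_of_injective _ Units.val_injective
        _ = (s ^ m) ^ m := by
            rw [Nat.card_congr (Matrix.of (m := Fin m) (n := Fin m) (α := ZMod s)).symm,
              Nat.card_fun, Nat.card_fun]
            simp
        _ ≤ 16 ^ m := Nat.pow_le_pow_left h6 m
        _ ≤ 16 ^ 4 := Nat.pow_le_pow_right (by norm_num) h4
    have hnt' : Nontrivial (Fin r) := Fintype.one_lt_card_iff_nontrivial.mp (by omega)
    have h10 := two_mul_nat_card_alternatingGroup (α := Fin r)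
    rw [Nat.card_perm, Nat.card_eq_fintype_card (α := Fin r), hcard] at h10
    have h11 : Nat.factorial 9 ≤ r.factorial := Nat.factorial_le hr
    have h12 : Nat.factorial 9 = 362880 := by decide
    omega

end Cfsg.Agent.AltS
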