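import Cfsg.Agent.AltS.W10

set_option autoImplicit false

namespace Cfsg.Agent.AltS

open Module Finset

variable {k V G α : Type*} [Field k] [AddCommGroup V] [Module k V] [Group G]
  [Fintype α] [DecidableEq α] {f : G →* alternatingGroup α} {ρ : G →* Module.End k V}

/-- in a nontrivial representation of a cover, elements outside the centre are not scalars. -/
theorem trivial_of_scalar (hf : Cov f) (hα : 5 ≤ Fintype.card α) {x : G} (hx : f x ≠ 1)
    (hc : ∃ c : k, ∀ v, ρ x v = c • v) (g : G) : ρ g = 1 := by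
  let N : Subgroup G :=
    { carrier := {g | ∃ c : k, ρ g = c • 1 ∧ ∃ d : k, ρ g⁻¹ = d • 1}
      one_mem' := ⟨1, by rw [map_one, one_smul], 1, by rw [inv_one, map_one, one_smul]⟩
      mul_mem' := by
        rintro a b ⟨c, hc, d, hd⟩ ⟨c', hc', d', hd'⟩
        refine ⟨c * c', ?_, d' * d, ?_⟩
        · rw [map_mul, hc, hc', smul_mul_assoc, one_mul, smul_smul]
        · rw [mul_inv_rev, map_mul, hd, hd', smul_mul_assoc, one_mul, smul_smul]
      inv_mem' := by
        rintro a ⟨c, hc, d, hd⟩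
        exact ⟨d, hd, c, by rw [inv_inv, hc]⟩ }
  have hN : N.Normal := by
    constructor
    rintro a ⟨c, hc, d, hd⟩ g
    refine ⟨c, ?_, d, ?_⟩
    · rw [map_mul, map_mul, hc, mul_smul_comm, mul_one, smul_mul_assoc, rr]
    · have : (g * a * g⁻¹)⁻¹ = g * a⁻¹ * g⁻¹ := by group
      rw [this, map_mul, map_mul, hd, mul_smul_comm, mul_one, smul_mul_assoc, rr]
  have hxN : x ∈ N := by
    obtain ⟨c, hc⟩ := hc
    have hc1 : ρ x = c • 1 := by ext v; rw [hc]; rfl
    by_cases hc0 : c = 0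
    · have h1 := rr ρ x
      rw [hc1, hc0, zero_smul, zero_mul] at h1
      refine ⟨c, hc1, c, ?_⟩
      rw [hc0, zero_smul, ← mul_one (ρ x⁻¹), ← h1, mul_zero]
    · refine ⟨c, hc1, c⁻¹, ?_⟩
      have h1 := rr ρ x
      rw [hc1, smul_mul_assoc, one_mul] at h1
      calc ρ x⁻¹ = c⁻¹ • (c • ρ x⁻¹) := by rw [smul_smul, inv_mul_cancel₀ hc0, one_smul]
        _ = c⁻¹ • 1 := by rw [h1]
  have htop := eq_top_of_normal hf
    (alternatingGroup.isSimpleGroup (by rw [Nat.card_eq_fintype_card]; exact hα)) N hN hxN hx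
  have hker : (⊤ : Subgroup G) ≤ MonoidHom.ker (ρ.toHomUnits) := by
    rw [← hf.perf, Subgroup.commutator_le]
    intro a _ b _
    rw [MonoidHom.mem_ker, map_commutatorElement, commutatorElement_eq_one_iff_mul_comm]
    ext1
    have ha : a ∈ N := by rw [htop]; trivial
    obtain ⟨c, hc, _⟩ := ha
    change ρ a * ρ b = ρ b * ρ a
    rw [hc, smul_mul_assoc, one_mul, mul_smul_comm, mul_one]
  have := hker (Subgroup.mem_top g)
  rw [MonoidHom.mem_ker] at this
  exact congrArg Units.val this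

theorem exists_emb {s : Finset α} (hs : 7 ≤ s.card) (hα : 10 ≤ Fintype.card α) :
    ∃ ι : Fin 10 ↪ α, ∀ i : Fin 10, ¬ (i = 0 ∨ i = 2 ∨ i = 3) → ι i ∈ s := by
  obtain ⟨s', hs', hc'⟩ := exists_subset_card_eq hs
  obtain ⟨t', ht', hct⟩ : ∃ t' ⊆ (univ \ s' : Finset α), t'.card = 3 := by
    apply exists_subset_card_eq
    have := le_card_sdiff s' univ
    rw [card_univ] at this
    omega
  let e7 : Fin 7 ≃ s' := (s'.equivFinOfCardEq hc').symm
  let e3 : Fin 3 ≃ t' := (t'.equivFinOfCardEq hct).symm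
  have hdis : ∀ i j, (e7 i : α) ≠ e3 j := by
    intro i j h
    have h1 := (mem_sdiff.mp (ht' (e3 j).2)).2
    exact h1 (h ▸ (e7 i).2)
  let g : Fin 7 ⊕ Fin 3 → α := Sum.elim (fun i => (e7 i : α)) (fun i => (e3 i : α))
  have hg : Function.Injective g := by
    rintro (a | a) (b | b) h
    · exact congrArg _ (e7.injective (Subtype.ext h))
    · exact absurd h (hdis a b)
    · exact absurd h.symm (hdis b a)
    · exact congrArg _ (e3.injective (Subtype.ext h))
  let φ : Fin 10 → Fin 7 ⊕ Fin 3 := ![Sum.inr 0, Sum.inl 5, Sum.inr 1, Sum.inr 2, Sum.inl 6,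
    Sum.inl 0, Sum.inl 1, Sum.inl 2, Sum.inl 3, Sum.inl 4]
  have hφ : Function.Injective φ := by decide +kernel
  refine ⟨⟨g ∘ φ, hg.comp hφ⟩, ?_⟩
  intro i hi
  fin_cases i
  · exact absurd (Or.inl rfl) hi
  · exact hs' (e7 5).2
  · exact absurd (Or.inr (Or.inl rfl)) hi
  · exact absurd (Or.inr (Or.inr rfl)) hi
  · exact hs' (e7 6).2
  · exact hs' (e7 0).2
  · exact hs' (e7 1).2
  · exact hs' (e7 2).2
  · exact hs' (e7 3).2
  · exact hs' (e7 4).2

theorem jj_mem_AS {ι : Fin 10 ↪ α} {s : Finset α}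
    (h : ∀ i : Fin 10, ¬ (i = 0 ∨ i = 2 ∨ i = 3) → ι i ∈ s) {x : alternatingGroup (Fin 10)}
    (hx : ∀ i : Fin 10, i = 0 ∨ i = 2 ∨ i = 3 → x.1 i = i) : jj ι x ∈ AS s := by
  rw [mem_AS]
  intro a ha
  by_cases har : a ∈ Set.range ι
  · obtain ⟨i, rfl⟩ := har
    rw [jj_apply, hx i (by
      by_contra hi
      exact ha (h i hi))]
  · exact jj_apply_of_notMem ι x a har

theorem star10 [IsAlgClosed k] [FiniteDimensional k V] (hf : Cov f) (hz : Scal f ρ)
    (h2 : 2 ≤ finrank k V) (h16 : finrank k V < 16) (h5 : (5 : k) ≠ 0)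
    (hα : 10 ≤ Fintype.card α) {s : Finset α} (hs : 7 ≤ s.card) (U : Submodule k V)
    (hU : Inv ρ (Yc f (AS s)) U) :
    (∀ g ∈ Yc f (AS s), ∀ u ∈ U, ρ g u = u) ∨ (∀ g ∈ Yc f (AS s), ∀ v, ρ g v - v ∈ U) := by
  have : Nontrivial V := Module.nontrivial_of_finrank_pos (R := k) (by omega)
  obtain ⟨ι, hι⟩ := exists_emb hs hα
  obtain ⟨em, hinj, em0, emadd, emex⟩ := exists_em k 5 (by exact_mod_cast h5)
  obtain ⟨t, Y, ht, LY, CY, hYdim⟩ := w10a hf hz h2 h16 h5 ι hinj em0 emadd emex
  obtain ⟨y, hy, hfy⟩ := exists_lift hf (AS_perf (s := s) (by omega)) (jj_mem_AS hι y10_fix)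
  obtain ⟨m, hm, hfm⟩ := exists_lift hf (AS_perf (s := s) (by omega)) (jj_mem_AS hι m10_fix)
  have hfy1 : f y ≠ 1 := by
    rw [hfy]
    intro h
    exact y10_ne (jj_injective ι (by rw [h, map_one]))
  obtain ⟨c, hc, hYy⟩ := Lft.unique hz (hfy ▸ Lft.rho y) LY
  have hYU : ∀ u ∈ U, Y u ∈ U := by
    intro u hu
    rw [hYy]
    exact U.smul_mem _ (hU y hy u hu)
  have hmY : cj ρ m Y = Y ^ 2 := by
    refine Can.unique hz (by decide : Odd 5) (a := jj ι (y10 ^ 2)) ?_ ?_
      (CY.cj hz (by rw [hfm, ht, ← map_mul, m10_t, map_mul])) (CY.pow 2)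
    · have := LY.cj m
      rwa [hfm, ← map_inv, ← map_mul, ← map_mul, m10_y] at this
    · rw [map_pow]; exact LY.pow 2
  have hmv : ∀ v i, Y v = em i • v → Y (ρ m v) = em (3 * i) • ρ m v := fun v i hv =>
    root_weight em0 emadd CY.1 2 3 (by norm_num) (by rw [cj_apply' hmY, hv, map_smul])
  have key : ∀ i : ZMod 5, i ≠ 0 → ∃ n : Fin 4, (fun i : ZMod 5 => 3 * i)^[n.1] i = 1 := by
    decide +kernel
  obtain ⟨fs, hfs, hfs2⟩ := exists_subcov hf (s := s) (by omega)
  have hfsy : fs ⟨y, hy⟩ ≠ 1 := by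
    intro h
    apply hfy1
    have := hfs2 ⟨y, hy⟩
    rw [h, map_one] at this
    exact this.symm
  have hcs : 5 ≤ Fintype.card s := by rw [Fintype.card_coe]; omega
  by_contra hcon
  push Not at hcon
  obtain ⟨⟨g1, hg1, u1, hu1, hne1⟩, ⟨g2, hg2, v2, hne2⟩⟩ := hcon
  obtain ⟨σ, hσ⟩ := exists_sub ρ _ U hU
  obtain ⟨τ, hτ⟩ := exists_quot ρ _ U hU
  -- inside `U`
  obtain ⟨u, hu, hu0, huY⟩ : ∃ u ∈ U, u ≠ 0 ∧ Y u = em 1 • u := by
    obtain ⟨w, hw, hwne⟩ : ∃ w ∈ U, Y w ≠ w := by
      by_contra hall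
      push Not at hall
      have h1 := trivial_of_scalar (ρ := σ) hfs hcs hfsy ⟨c⁻¹, fun w => by
        apply Subtype.ext
        rw [hσ, Submodule.coe_smul]
        have h3 := hall w.1 w.2
        rw [hYy] at h3
        calc ρ y (w : V) = c⁻¹ • (c • ρ y (w : V)) := by
              rw [smul_smul, inv_mul_cancel₀ hc, one_smul]
          _ = c⁻¹ • (w : V) := by
              rw [← LinearMap.smul_apply, h3]⟩ ⟨g1, hg1⟩
      apply hne1
      have h3 := hσ ⟨g1, hg1⟩ ⟨u1, hu1⟩
      rw [h1] at h3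
      exact h3.symm
    obtain ⟨i, hi, v, hvU, hv0, hvY⟩ := exists_eig5 em0 emex h5 CY.1 U hYU hw hwne
    obtain ⟨n, hn⟩ := key i hi
    have := iter_closed (P := fun i => ∃ u ∈ U, u ≠ 0 ∧ Y u = em i • u)
      (φ := fun i : ZMod 5 => 3 * i) (by
        rintro i ⟨u, hu, hu0, huY⟩
        exact ⟨ρ m u, hU m hm u hu, rho_ne_zero ρ m hu0, hmv u i huY⟩) n.1 i ⟨v, hvU, hv0, hvY⟩
    rwa [hn] at this
  -- outside `U`
  obtain ⟨v, hvU, hvY⟩ : ∃ v, v ∉ U ∧ Y v = em 1 • v := by
    obtain ⟨w, hwne⟩ : ∃ w, Y w - w ∉ U := by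
      by_contra hall
      push Not at hall
      have h1 := trivial_of_scalar (ρ := τ) hfs hcs hfsy ⟨c⁻¹, fun w => by
        obtain ⟨w, rfl⟩ := Submodule.Quotient.mk_surjective U w
        rw [hτ, ← Submodule.Quotient.mk_smul, Submodule.Quotient.eq]
        have h3 := hall w
        rw [hYy] at h3
        have h4 := U.smul_mem c⁻¹ h3
        rw [smul_sub, LinearMap.smul_apply, smul_smul, inv_mul_cancel₀ hc, one_smul] at h4
        exact h4⟩ ⟨g2, hg2⟩
      apply hne2
      have h3 := hτ ⟨g2, hg2⟩ v2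
      rw [h1] at h3
      exact (Submodule.Quotient.eq U).mp h3.symm
    -- components
    obtain ⟨i, hi, v, hvU, hvY⟩ : ∃ i : ZMod 5, i ≠ 0 ∧ ∃ v, v ∉ U ∧ Y v = em i • v := by
      by_contra hno
      push Not at hno
      apply hwne
      -- `5 w = ∑ p_i`
      let p : ZMod 5 → V := fun i => ∑ n ∈ range 5, em (-(n : ZMod 5) * i) • (Y ^ n) w
      have hYp : ∀ i, Y (p i) = em i • p i := by
        intro i
        simp only [p]
        rw [map_sum, smul_sum]
        have h1 : ∀ n : ℕ, Y (em (-(n : ZMod 5) * i) • (Y ^ n) w) =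
            em i • (em (-((n + 1 : ℕ) : ZMod 5) * i) • (Y ^ (n + 1)) w) := by
          intro n
          rw [map_smul, smul_smul, ← emadd, pow_succ', Module.End.mul_apply]
          congr 2
          push_cast
          ring
        rw [sum_congr rfl (fun n _ => h1 n), ← smul_sum, ← smul_sum]
        congr 1
        rw [sum_range_succ' (fun n => em (-(n : ZMod 5) * i) • (Y ^ n) w) 4,
          sum_range_succ (fun n => em (-((n + 1 : ℕ) : ZMod 5) * i) • (Y ^ (n + 1)) w) 4]
        congr 1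
        rw [CY.1]
        have h5' : ((4 + 1 : ℕ) : ZMod 5) = 0 := by decide
        rw [h5']
        simp
      have hpU : ∀ i, i ≠ 0 → p i ∈ U := by
        intro i hi
        by_contra hpi
        exact hno i hi (p i) hpi (hYp i)
      have hsum : ∑ i : ZMod 5, p i = (5 : k) • w := by
        simp only [p]
        rw [sum_comm]
        have h1 : ∀ n ∈ range 5, ∑ i : ZMod 5, em (-(n : ZMod 5) * i) • (Y ^ n) w =
            if n = 0 then (5 : k) • w else 0 := by
          intro n hn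
          rw [← sum_smul]
          by_cases hn0 : n = 0
          · subst hn0
            simp [em0]
          · rw [if_neg hn0]
            have h2 : ∑ i : ZMod 5, em (-(n : ZMod 5) * i) = 0 := by
              have hn5 : (n : ZMod 5) ≠ 0 := by
                intro h
                have := (ZMod.natCast_eq_zero_iff n 5).mp h
                have h4 := mem_range.mp hn
                exact hn0 (Nat.eq_zero_of_dvd_of_lt this h4)
              set z := ∑ i : ZMod 5, em (-(n : ZMod 5) * i) with hz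
              have h3 : em (-(n : ZMod 5)) * z = z := by
                rw [hz, mul_sum, ← Equiv.sum_comp (Equiv.addRight (1 : ZMod 5))
                  (fun i => em (-(n : ZMod 5) * i))]
                refine sum_congr rfl fun i _ => ?_
                rw [← emadd]
                congr 1
                simp only [Equiv.coe_addRight]
                ring
              have h4 : em (-(n : ZMod 5)) ≠ 1 := by
                rw [← em0]
                intro h
                exact hn5 (neg_eq_zero.mp (hinj h))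
              have h6 : (em (-(n : ZMod 5)) - 1) * z = 0 := by rw [sub_mul, h3, one_mul, sub_self]
              exact (mul_eq_zero.mp h6).resolve_left (sub_ne_zero.mpr h4)
            rw [h2, zero_smul]
        rw [sum_congr rfl h1]
        simp
      have h0 : Y (p 0) = p 0 := by rw [hYp, em0, one_smul]
      have hsplit : (5 : k) • w = p 0 + ∑ i ∈ univ.erase (0 : ZMod 5), p i := by
        rw [← hsum, add_sum_erase univ p (mem_univ _)]
      have hrest : ∑ i ∈ univ.erase (0 : ZMod 5), p i ∈ U :=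
        U.sum_mem fun i hi => hpU i (mem_erase.mp hi).1
      have h6 : (5 : k) • (Y w - w) ∈ U := by
        rw [smul_sub, ← map_smul, hsplit, map_add, h0]
        have : p 0 + Y (∑ i ∈ univ.erase (0 : ZMod 5), p i) -
            (p 0 + ∑ i ∈ univ.erase (0 : ZMod 5), p i) =
            Y (∑ i ∈ univ.erase (0 : ZMod 5), p i) - ∑ i ∈ univ.erase (0 : ZMod 5), p i := by abel
        rw [this]
        exact U.sub_mem (hYU _ hrest) hrest
      have h7 := U.smul_mem (5 : k)⁻¹ h6
      rwa [smul_smul, inv_mul_cancel₀ h5, one_smul] at h7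
    obtain ⟨n, hn⟩ := key i hi
    have := iter_closed (P := fun i => ∃ v, v ∉ U ∧ Y v = em i • v)
      (φ := fun i : ZMod 5 => 3 * i) (by
        rintro i ⟨u, hu, huY⟩
        refine ⟨ρ m u, fun h => hu ?_, hmv u i huY⟩
        have := hU m⁻¹ (Subgroup.inv_mem _ hm) _ h
        rwa [rho_inv_self] at this) n.1 i ⟨v, hvU, hvY⟩
    rwa [hn] at this
  obtain ⟨c', hc'⟩ := hYdim u v hu0 huY hvY
  exact hvU (hc' ▸ U.smul_mem _ hu)

end Cfsg.Agent.AltS
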