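import Cfsg.Agent.AltS.W9

set_option autoImplicit false

namespace Cfsg.Agent.AltS

open Module

section LI2
variable {k V ι N : Type*} [Field k] [AddCommGroup V] [Module k V]

theorem zero_of_sum (T : N → Module.End k V) (χ : ι → N → k) (hχ : Function.Injective χ) :
    ∀ (s : Finset ι) (u : ι → V), (∀ n i, T n (u i) = χ i n • u i) → ∑ i ∈ s, u i = 0 →
      ∀ i ∈ s, u i = 0 := by
  classical
  intro s
  induction s using Finset.induction_on with
  | empty => intro u _ _ i hi; simp at hi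
  | insert j s hj ih =>
    intro u hu hs
    have key : ∀ i ∈ s, u i = 0 := by
      intro i hi
      have hij : i ≠ j := fun e => hj (e ▸ hi)
      obtain ⟨n, hn⟩ : ∃ n, χ i n ≠ χ j n := by
        by_contra hcon
        push Not at hcon
        exact hij (hχ (funext hcon))
      have h1 : ∑ i ∈ s, (χ i n - χ j n) • u i = 0 := by
        have h2 : T n (∑ i ∈ insert j s, u i) - χ j n • (∑ i ∈ insert j s, u i) = 0 := by
          rw [hs]; simp
        rw [map_sum, Finset.smul_sum, ← Finset.sum_sub_distrib, Finset.sum_insert hj, hu,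
          sub_self, zero_add] at h2
        rw [← h2]
        exact Finset.sum_congr rfl fun x _ => by rw [hu, sub_smul]
      have h3 := ih (fun i => (χ i n - χ j n) • u i)
        (fun n' i => by rw [map_smul, hu, smul_smul, smul_smul, mul_comm]) h1 i hi
      exact (smul_eq_zero.mp h3).resolve_left (sub_ne_zero.mpr hn)
    intro i hi
    rcases Finset.mem_insert.mp hi with rfl | hi
    · rw [Finset.sum_insert hj, Finset.sum_eq_zero key, add_zero] at hs
      exact hs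
    · exact key i hi

/-- two independent vectors in each weight space. -/
theorem card_le_of_weights2 [Fintype ι] [FiniteDimensional k V] (T : N → Module.End k V)
    (v v' : ι → V) (χ : ι → N → k) (hχ : Function.Injective χ)
    (hv : ∀ i (a b : k), a • v i + b • v' i = 0 → a = 0 ∧ b = 0)
    (h : ∀ n i, T n (v i) = χ i n • v i) (h' : ∀ n i, T n (v' i) = χ i n • v' i) :
    2 * Fintype.card ι ≤ finrank k V := by
  have hli : LinearIndependent k (Sum.elim v v') := by
    rw [Fintype.linearIndependent_iff]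
    intro g hg
    rw [Fintype.sum_sum_type] at hg
    simp only [Sum.elim_inl, Sum.elim_inr] at hg
    rw [← Finset.sum_add_distrib] at hg
    have h2 := zero_of_sum T χ hχ Finset.univ
      (fun i => g (Sum.inl i) • v i + g (Sum.inr i) • v' i) (fun n i => by
        rw [map_add, map_smul, map_smul, h, h', smul_add, smul_smul, smul_smul, smul_smul,
          smul_smul, mul_comm (g (Sum.inl i)), mul_comm (g (Sum.inr i))]) hg
    rintro (i | i)
    · exact (hv i _ _ (h2 i (Finset.mem_univ i))).1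
    · exact (hv i _ _ (h2 i (Finset.mem_univ i))).2
  have h3 := hli.fintype_card_le_finrank
  rw [Fintype.card_sum] at h3
  omega

end LI2

variable {k V G α : Type*} [Field k] [AddCommGroup V] [Module k V] [Group G]
  [Fintype α] [DecidableEq α] {f : G →* alternatingGroup α} {ρ : G →* Module.End k V}

theorem pow_weight {em : ZMod 5 → k} (em0 : em 0 = 1) (emadd : ∀ i j, em (i + j) = em i * em j)
    {X : Module.End k V} {v : V} {i : ZMod 5} (h : X v = em i • v) (n : ℕ) :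
    (X ^ n) v = em (n * i) • v := by
  induction n with
  | zero => simp [em0]
  | succ n ih =>
    rw [pow_succ', Module.End.mul_apply, ih, map_smul, h, smul_smul, ← emadd]
    congr 2
    push_cast
    ring

theorem root_weight {em : ZMod 5 → k} (em0 : em 0 = 1) (emadd : ∀ i j, em (i + j) = em i * em j)
    {X : Module.End k V} (hX : X ^ 5 = 1) {v : V} {i : ZMod 5} (n m : ℕ) (hnm : n * m % 5 = 1)
    (h : (X ^ n) v = em i • v) : X v = em (m * i) • v := by
  have h1 : (X ^ n) ^ m = X := by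
    rw [← pow_mul, pow_eq_pow_mod _ hX, hnm, pow_one]
  have h2 := pow_weight em0 emadd h m
  rwa [h1] at h2

/-- eigenvectors of an operator of exponent 5 inside an invariant subspace. -/
theorem exists_eig5 [IsAlgClosed k] [FiniteDimensional k V] {em : ZMod 5 → k} (em0 : em 0 = 1)
    (emex : ∀ l : k, l ^ 5 = 1 → ∃ i, em i = l) (h5 : (5 : k) ≠ 0)
    {X : Module.End k V} (hX : X ^ 5 = 1) (U : Submodule k V) (hU : ∀ u ∈ U, X u ∈ U)
    {u : V} (hu : u ∈ U) (hne : X u ≠ u) :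
    ∃ i : ZMod 5, i ≠ 0 ∧ ∃ v ∈ U, v ≠ 0 ∧ X v = em i • v := by
  set W : Submodule k V := U.map (X - 1) with hW
  have hWU : W ≤ U := by
    rintro _ ⟨x, hx, rfl⟩
    exact U.sub_mem (hU x hx) hx
  have hWb : W ≠ ⊥ := by
    intro h
    have : X u - u ∈ W := ⟨u, hu, rfl⟩
    rw [h, Submodule.mem_bot, sub_eq_zero] at this
    exact hne this
  obtain ⟨μ, w, hw, hw0, hwe⟩ := exists_eig X W hWb (by
    rintro _ ⟨x, hx, rfl⟩
    exact ⟨X x, hU x hx, by simp⟩)
  have h3 : ∀ n : ℕ, (X ^ n) w = (μ ^ n) • w := by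
    intro n
    induction n with
    | zero => simp
    | succ n ih => rw [pow_succ', Module.End.mul_apply, ih, map_smul, hwe, smul_smul, pow_succ]
  have h4 := h3 5
  rw [hX, Module.End.one_apply] at h4
  obtain ⟨i, hi⟩ := emex μ (smul_inj_vec hw0 (by rw [← h4, one_smul]))
  refine ⟨i, ?_, w, hWU hw, hw0, by rw [hwe, hi]⟩
  rintro rfl
  rw [← hi, em0, one_smul] at hwe
  obtain ⟨x, hx, hxw⟩ := hw
  have hx' : X x - x = w := by rw [← hxw]; rfl
  have h6 := fix_of_fix2 (X := X) hX (by exact_mod_cast h5) (w := x) (by rw [hx', hwe])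
  exact hw0 (by rw [← hx', h6, sub_self])

theorem w10a [IsAlgClosed k] [FiniteDimensional k V] (hf : Cov f) (hz : Scal f ρ)
    (h2 : 2 ≤ finrank k V) (h16 : finrank k V < 16) (h5 : (5 : k) ≠ 0)
    (ι : Fin 10 ↪ α) {em : ZMod 5 → k} (hinj : Function.Injective em) (em0 : em 0 = 1)
    (emadd : ∀ i j, em (i + j) = em i * em j) (emex : ∀ l : k, l ^ 5 = 1 → ∃ i, em i = l) :
    ∃ (t : G) (Y : Module.End k V), f t = jj ι (s10 * s10') ∧ Lft f ρ (jj ι y10) Y ∧
      Can ρ t 5 Y ∧ ∀ v v', v ≠ 0 → Y v = em 1 • v → Y v' = em 1 • v' → ∃ c : k, v' = c • v := by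
  have : Nontrivial V := Module.nontrivial_of_finrank_pos (R := k) (by omega)
  have hm : Odd 5 := by decide
  obtain ⟨t, ht⟩ := hf.surj (jj ι (s10 * s10'))
  obtain ⟨gh, hgh⟩ := hf.surj (jj ι h10)
  obtain ⟨gk, hgk⟩ := hf.surj (jj ι k10)
  obtain ⟨gs, hgs⟩ := hf.surj (jj ι s10)
  obtain ⟨X, LX, CX⟩ := Can.exists (ρ := ρ) hf hz (t := t) hm (a := jj ι x10)
    (by rw [← map_pow, x10_pow, map_one])
    (by rw [ht, ← map_mul, ← map_inv, ← map_mul, t10_x, map_inv])
  obtain ⟨Y, LY, CY⟩ := Can.exists (ρ := ρ) hf hz (t := t) hm (a := jj ι y10)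
    (by rw [← map_pow, y10_pow, map_one])
    (by rw [ht, ← map_mul, ← map_inv, ← map_mul, t10_y, map_inv])
  have hXY : X * Y = Y * X := by
    refine comm_of_inv hz (s := gs) hm ?_ ?_ ?_ ?_ LX LY
    · rw [← map_mul, xy10, map_mul]
    · rw [← map_pow, x10_pow, map_one]
    · rw [hgs, ← map_mul, ← map_inv, ← map_mul, s10_x, map_inv]
    · rw [hgs, ← map_mul, ← map_inv, ← map_mul, s10_y]
  have th : f gh * f t = f t * f gh := by rw [hgh, ht, ← map_mul, h10_t, map_mul]
  have tk : f gk * f t = f t * f gk := by rw [hgk, ht, ← map_mul, k10_t, map_mul]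
  have ts : f gs * f t = f t * f gs := by rw [hgs, ht, ← map_mul, s10_t, map_mul]
  have rhX : cj ρ gh X = X ^ 2 := by
    refine Can.unique hz hm (a := jj ι (x10 ^ 2)) ?_ ?_ (CX.cj hz th) (CX.pow 2)
    · have := LX.cj gh
      rwa [hgh, ← map_inv, ← map_mul, ← map_mul, h10_x] at this
    · rw [map_pow]; exact LX.pow 2
  have rhY : cj ρ gh Y = Y ^ 2 := by
    refine Can.unique hz hm (a := jj ι (y10 ^ 2)) ?_ ?_ (CY.cj hz th) (CY.pow 2)
    · have := LY.cj gh
      rwa [hgh, ← map_inv, ← map_mul, ← map_mul, h10_y] at this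
    · rw [map_pow]; exact LY.pow 2
  have rkX : cj ρ gk X = Y ^ 2 := by
    refine Can.unique hz hm (a := jj ι (y10 ^ 2)) ?_ ?_ (CX.cj hz tk) (CY.pow 2)
    · have := LX.cj gk
      rwa [hgk, ← map_inv, ← map_mul, ← map_mul, k10_x] at this
    · rw [map_pow]; exact LY.pow 2
  have rkY : cj ρ gk Y = X := by
    refine Can.unique hz hm (a := jj ι x10) ?_ LX (CY.cj hz tk) CX
    have := LY.cj gk
    rwa [hgk, ← map_inv, ← map_mul, ← map_mul, k10_y] at this
  have rsX : cj ρ gs X = X ^ 4 := by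
    refine Can.unique hz hm (a := jj ι (x10 ^ 4)) ?_ ?_ (CX.cj hz ts) (CX.pow 4)
    · have := LX.cj gs
      rwa [hgs, ← map_inv, ← map_mul, ← map_mul, s10_x4] at this
    · rw [map_pow]; exact LX.pow 4
  have rsY : cj ρ gs Y = Y := by
    refine Can.unique hz hm (a := jj ι y10) ?_ LY (CY.cj hz ts) CY
    have := LY.cj gs
    rwa [hgs, ← map_inv, ← map_mul, ← map_mul, s10_y] at this
  -- weights of images
  have wh : ∀ (v : V) (i j : ZMod 5), X v = em i • v → Y v = em j • v →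
      X (ρ gh v) = em (3 * i) • ρ gh v ∧ Y (ρ gh v) = em (3 * j) • ρ gh v := by
    intro v i j hi hj
    constructor
    · exact root_weight em0 emadd CX.1 2 3 (by norm_num) (by rw [cj_apply' rhX, hi, map_smul])
    · exact root_weight em0 emadd CY.1 2 3 (by norm_num) (by rw [cj_apply' rhY, hj, map_smul])
  have wk : ∀ (v : V) (i j : ZMod 5), X v = em i • v → Y v = em j • v →
      X (ρ gk v) = em j • ρ gk v ∧ Y (ρ gk v) = em (3 * i) • ρ gk v := by
    intro v i j hi hj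
    constructor
    · rw [cj_apply' rkY, hj, map_smul]
    · exact root_weight em0 emadd CY.1 2 3 (by norm_num) (by rw [cj_apply' rkX, hi, map_smul])
  have ws : ∀ (v : V) (i j : ZMod 5), X v = em i • v → Y v = em j • v →
      X (ρ gs v) = em (4 * i) • ρ gs v ∧ Y (ρ gs v) = em j • ρ gs v := by
    intro v i j hi hj
    constructor
    · exact root_weight em0 emadd CX.1 4 4 (by norm_num) (by rw [cj_apply' rsX, hi, map_smul])
    · rw [cj_apply' rsY, hj, map_smul]
  -- (a)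
  have hnoP : ∀ i j : ZMod 5, i ≠ 0 → j ≠ 0 → ∀ v : V, v ≠ 0 → X v = em i • v → Y v = em j • v →
      False := by
    intro i j hi hj v hv hvX hvY
    let P : ZMod 5 × ZMod 5 → Prop := fun w =>
      ∃ v : V, v ≠ 0 ∧ X v = em w.1 • v ∧ Y v = em w.2 • v
    have steph : ∀ w, P w → P (3 * w.1, 3 * w.2) := by
      rintro w ⟨v, hv, v0, v1⟩
      exact ⟨ρ gh v, rho_ne_zero ρ gh hv, wh v _ _ v0 v1⟩
    have stepk : ∀ w, P w → P (w.2, 3 * w.1) := by
      rintro w ⟨v, hv, v0, v1⟩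
      exact ⟨ρ gk v, rho_ne_zero ρ gk hv, wk v _ _ v0 v1⟩
    have steps : ∀ w, P w → P (4 * w.1, w.2) := by
      rintro w ⟨v, hv, v0, v1⟩
      exact ⟨ρ gs v, rho_ne_zero ρ gs hv, ws v _ _ v0 v1⟩
    have hall : ∀ w : ZMod 5 × ZMod 5, w.1 ≠ 0 ∧ w.2 ≠ 0 → P w := by
      have key : ∀ w0 w : ZMod 5 × ZMod 5, w0.1 ≠ 0 → w0.2 ≠ 0 → w.1 ≠ 0 → w.2 ≠ 0 →
          ∃ (n : Fin 4) (l : Fin 2) (m : Fin 2),
          (fun w : ZMod 5 × ZMod 5 => (3 * w.1, 3 * w.2))^[n.1]
            ((fun w : ZMod 5 × ZMod 5 => (4 * w.1, w.2))^[l.1]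
              ((fun w : ZMod 5 × ZMod 5 => (w.2, 3 * w.1))^[m.1] w0)) = w := by
        decide +kernel
      rintro w ⟨hw1, hw2⟩
      obtain ⟨n, l, m, hn⟩ := key (i, j) w hi hj hw1 hw2
      rw [← hn]
      exact iter_closed steph _ _ (iter_closed steps _ _ (iter_closed stepk _ _ ⟨v, hv, hvX, hvY⟩))
    choose! vv hv0 hv1 hv2 using hall
    have hcard : Fintype.card {w : ZMod 5 × ZMod 5 // w.1 ≠ 0 ∧ w.2 ≠ 0} = 16 := by
      decide +kernel
    have h3 : Fintype.card {w : ZMod 5 × ZMod 5 // w.1 ≠ 0 ∧ w.2 ≠ 0} ≤ finrank k V := by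
      refine card_le_of_weights ![X, Y]
        (fun w : {w : ZMod 5 × ZMod 5 // w.1 ≠ 0 ∧ w.2 ≠ 0} => vv w.1)
        (fun w => ![em w.1.1, em w.1.2]) ?_ (fun w => hv0 _ w.2) ?_
      · intro w w' h
        have h0 := hinj (congrFun h 0)
        have h1 := hinj (congrFun h 1)
        exact Subtype.ext (Prod.ext h0 h1)
      · intro n w
        fin_cases n
        · exact hv1 _ w.2
        · exact hv2 _ w.2
    omega
  -- (b)
  have hfixX : ∀ v, Y v = em 1 • v → X v = em 0 • v := by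
    intro v hv
    rw [em0, one_smul]
    by_contra hne
    set U : Submodule k V := LinearMap.ker (Y - em 1 • (1 : Module.End k V)) with hU
    have hmem : ∀ x, x ∈ U ↔ Y x = em 1 • x := by
      intro x
      rw [hU, LinearMap.mem_ker]
      simp [sub_eq_zero]
    obtain ⟨i, hi, w, hwU, hw0, hw⟩ := exists_eig5 em0 emex h5 CX.1 U
      (fun u hu => (hmem _).mpr (by
        have : Y (X u) = X (Y u) := (congrArg (fun T : Module.End k V => T u) hXY).symm
        rw [this, (hmem u).mp hu, map_smul])) ((hmem v).mpr hv) hne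
    exact hnoP i 1 hi (by decide) w hw0 hw ((hmem w).mp hwU)
  refine ⟨t, Y, ht, LY, CY, ?_⟩
  intro v v' hv hvY hvY'
  by_contra hcon
  push Not at hcon
  let P : ZMod 5 × ZMod 5 → Prop := fun w =>
    ∃ v v' : V, (∀ a b : k, a • v + b • v' = 0 → a = 0 ∧ b = 0) ∧
      (X v = em w.1 • v ∧ Y v = em w.2 • v) ∧ (X v' = em w.1 • v' ∧ Y v' = em w.2 • v')
  have hinjρ : ∀ (g : G) (v v' : V), (∀ a b : k, a • v + b • v' = 0 → a = 0 ∧ b = 0) →
      (∀ a b : k, a • ρ g v + b • ρ g v' = 0 → a = 0 ∧ b = 0) := by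
    intro g v v' h a b hab
    apply h
    rw [← map_smul, ← map_smul, ← map_add] at hab
    by_contra hne
    exact rho_ne_zero ρ g hne hab
  have steph : ∀ w, P w → P (3 * w.1, 3 * w.2) := by
    rintro w ⟨v, v', hv, ⟨v0, v1⟩, ⟨v0', v1'⟩⟩
    exact ⟨ρ gh v, ρ gh v', hinjρ _ _ _ hv, wh v _ _ v0 v1, wh v' _ _ v0' v1'⟩
  have stepk : ∀ w, P w → P (w.2, 3 * w.1) := by
    rintro w ⟨v, v', hv, ⟨v0, v1⟩, ⟨v0', v1'⟩⟩
    exact ⟨ρ gk v, ρ gk v', hinjρ _ _ _ hv, wk v _ _ v0 v1, wk v' _ _ v0' v1'⟩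
  have hP01 : P (0, 1) := by
    refine ⟨v, v', ?_, ⟨hfixX v hvY, hvY⟩, ⟨hfixX v' hvY', hvY'⟩⟩
    intro a b hab
    have hb : b = 0 := by
      by_contra hb
      apply hcon (-(b⁻¹ * a))
      have h3 : b • v' = -(a • v) := by rw [eq_neg_iff_add_eq_zero, add_comm]; exact hab
      calc v' = b⁻¹ • (b • v') := by rw [smul_smul, inv_mul_cancel₀ hb, one_smul]
        _ = -(b⁻¹ * a) • v := by rw [h3, smul_neg, smul_smul, neg_smul]
    rw [hb, zero_smul, add_zero] at hab
    exact ⟨(smul_eq_zero.mp hab).resolve_right hv, hb⟩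
  have hall : ∀ w : ZMod 5 × ZMod 5, (w.1 = 0 ∧ w.2 ≠ 0) ∨ (w.1 ≠ 0 ∧ w.2 = 0) → P w := by
    have key : ∀ w : ZMod 5 × ZMod 5, (w.1 = 0 ∧ w.2 ≠ 0) ∨ (w.1 ≠ 0 ∧ w.2 = 0) →
        ∃ (n : Fin 4) (m : Fin 2),
        (fun w : ZMod 5 × ZMod 5 => (3 * w.1, 3 * w.2))^[n.1]
            ((fun w : ZMod 5 × ZMod 5 => (w.2, 3 * w.1))^[m.1] (0, 1)) = w := by
      decide +kernel
    intro w hw
    obtain ⟨n, m, hn⟩ := key w hw
    rw [← hn]
    exact iter_closed steph _ _ (iter_closed stepk _ _ hP01)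
  choose! vv vv' hv0 hv1 hv2 using hall
  have hcard : Fintype.card
      {w : ZMod 5 × ZMod 5 // (w.1 = 0 ∧ w.2 ≠ 0) ∨ (w.1 ≠ 0 ∧ w.2 = 0)} = 8 := by
    decide +kernel
  have h3 : 2 * Fintype.card
      {w : ZMod 5 × ZMod 5 // (w.1 = 0 ∧ w.2 ≠ 0) ∨ (w.1 ≠ 0 ∧ w.2 = 0)} ≤ finrank k V := by
    refine card_le_of_weights2 ![X, Y]
      (fun w : {w : ZMod 5 × ZMod 5 // (w.1 = 0 ∧ w.2 ≠ 0) ∨ (w.1 ≠ 0 ∧ w.2 = 0)} => vv w.1)
      (fun w => vv' w.1)
      (fun w => ![em w.1.1, em w.1.2]) ?_ (fun w => hv0 _ w.2) ?_ ?_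
    · intro w w' h
      have h0 := hinj (congrFun h 0)
      have h1 := hinj (congrFun h 1)
      exact Subtype.ext (Prod.ext h0 h1)
    · intro n w
      fin_cases n
      · exact (hv1 _ w.2).1
      · exact (hv1 _ w.2).2
    · intro n w
      fin_cases n
      · exact (hv2 _ w.2).1
      · exact (hv2 _ w.2).2
  omega

end Cfsg.Agent.AltS
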