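import Cfsg.Agent.AltS.Can
import Cfsg.Agent.AltS.JJ

set_option autoImplicit false

namespace Cfsg.Agent.AltS

open Module

theorem exists_em (k : Type*) [Field k] [IsAlgClosed k] (m : ℕ) [NeZero m] (hm : (m : k) ≠ 0) :
    ∃ em : ZMod m → k, Function.Injective em ∧ em 0 = 1 ∧ (∀ i j, em (i + j) = em i * em j) ∧
      ∀ l : k, l ^ m = 1 → ∃ i, em i = l := by
  have : NeZero (m : k) := ⟨hm⟩
  obtain ⟨ζ, hζ⟩ := HasEnoughRootsOfUnity.exists_primitiveRoot k m
  refine ⟨fun i => ζ ^ i.val, ?_, by simp, ?_, ?_⟩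
  · intro i j h
    apply ZMod.val_injective m
    exact hζ.pow_inj (ZMod.val_lt i) (ZMod.val_lt j) h
  · intro i j
    change ζ ^ (i + j).val = _
    rw [← pow_add, ZMod.val_add]
    exact (pow_eq_pow_mod _ hζ.pow_eq_one).symm
  · intro l hl
    obtain ⟨i, hi, e⟩ := hζ.eq_pow_of_pow_eq_one hl
    refine ⟨(i : ZMod m), ?_⟩
    change ζ ^ ((i : ZMod m)).val = l
    rw [ZMod.val_natCast, Nat.mod_eq_of_lt hi, e]

variable {k V G α : Type*} [Field k] [AddCommGroup V] [Module k V] [Group G]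
  [Fintype α] [DecidableEq α] {f : G →* alternatingGroup α} {ρ : G →* Module.End k V}

theorem cj_apply (g : G) (X : Module.End k V) (v : V) : cj ρ g X (ρ g v) = ρ g (X v) := by
  unfold cj
  rw [Module.End.mul_apply, Module.End.mul_apply, rho_inv_self]

theorem cj_apply' {g : G} {X Y : Module.End k V} (h : cj ρ g X = Y) (v : V) :
    Y (ρ g v) = ρ g (X v) := by
  rw [← h, cj_apply]

theorem lft_not_one [FiniteDimensional k V] (hf : Cov f) (hα : 5 ≤ Fintype.card α)
    (hirr : IrrOn ρ ⊤) (h2 : 2 ≤ finrank k V) {a : alternatingGroup α} (ha : a ≠ 1)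
    {X : Module.End k V} (hX : Lft f ρ a X) (c : k) : X ≠ c • 1 := by
  obtain ⟨g, rfl, d, hd, rfl⟩ := hX
  intro h
  apply not_scalar hf hα hirr h2 ha
  refine ⟨d⁻¹ * c, fun v => ?_⟩
  have := congrArg (fun T : Module.End k V => T v) h
  simp only [LinearMap.smul_apply, Module.End.one_apply] at this
  rw [mul_smul, ← this, smul_smul, inv_mul_cancel₀ hd, one_smul]

theorem iter_closed {S : Type*} {P : S → Prop} {φ : S → S} (h : ∀ w, P w → P (φ w)) (n : ℕ) :
    ∀ w, P w → P (φ^[n] w) := by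
  induction n with
  | zero => intro w hw; exact hw
  | succ n ih =>
    intro w hw
    rw [Function.iterate_succ_apply]
    exact ih _ (h w hw)

theorem w8 [IsAlgClosed k] [FiniteDimensional k V] (hf : Cov f) (hz : Scal f ρ)
    (hirr : IrrOn ρ ⊤) (h2 : 2 ≤ finrank k V) (hk : (2 : k) ≠ 0) (ι : Fin 8 ↪ α) :
    7 ≤ finrank k V := by
  have : Nontrivial V := Module.nontrivial_of_finrank_pos (R := k) (by omega)
  have hα : 5 ≤ Fintype.card α := by
    have := Fintype.card_le_of_embedding ι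
    rw [Fintype.card_fin] at this
    omega
  obtain ⟨ge, hge⟩ := hf.surj (jj ι e8)
  obtain ⟨c, hc⟩ := hf.surj (jj ι c8)
  -- scaling
  have hL : Lft f ρ (jj ι e8) (ρ ge) := hge ▸ Lft.rho ge
  have h1 : Lft f ρ 1 (ρ ge * ρ ge) := by
    have := hL.mul hL
    rwa [← map_mul, e8_sq, map_one] at this
  obtain ⟨ζ, hζ, e1⟩ := Lft.scalar_of_one hz h1
  obtain ⟨s, hs⟩ := IsAlgClosed.exists_pow_nat_eq (ζ⁻¹) (n := 2) (by norm_num)
  have hs0 : s ≠ 0 := by
    rintro rfl
    rw [zero_pow (by norm_num)] at hs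
    exact inv_ne_zero hζ hs.symm
  obtain ⟨E0, hE0⟩ : ∃ X : Module.End k V, X = s • ρ ge := ⟨_, rfl⟩
  have L0 : Lft f ρ (jj ι e8) E0 := hE0 ▸ hL.smul hs0
  have q0 : E0 * E0 = 1 := by
    rw [hE0, smul_mul_assoc, mul_smul_comm, smul_smul, e1, smul_smul, ← pow_two, hs,
      inv_mul_cancel₀ hζ, one_smul]
  obtain ⟨E1, hE1⟩ : ∃ X : Module.End k V, X = cj ρ c E0 := ⟨_, rfl⟩
  obtain ⟨E2, hE2⟩ : ∃ X : Module.End k V, X = cj ρ c E1 := ⟨_, rfl⟩
  obtain ⟨E3, hE3⟩ : ∃ X : Module.End k V, X = cj ρ c E2 := ⟨_, rfl⟩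
  have q1 : E1 * E1 = 1 := by rw [hE1, ← cj_mul, q0, cj_one]
  have q2 : E2 * E2 = 1 := by rw [hE2, ← cj_mul, q1, cj_one]
  have q3 : E3 * E3 = 1 := by rw [hE3, ← cj_mul, q2, cj_one]
  have L1 : Lft f ρ (jj ι (c8 * e8 * c8⁻¹)) E1 := by
    have := L0.cj c
    rwa [← hE1, hc, ← map_inv, ← map_mul, ← map_mul] at this
  have L2 : Lft f ρ (jj ι (c8 * (c8 * e8 * c8⁻¹) * c8⁻¹)) E2 := by
    have := L1.cj c
    rwa [← hE2, hc, ← map_inv, ← map_mul, ← map_mul] at this
  have L3 : Lft f ρ (jj ι (c8 * (c8 * (c8 * e8 * c8⁻¹) * c8⁻¹) * c8⁻¹)) E3 := by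
    have := L2.cj c
    rwa [← hE3, hc, ← map_inv, ← map_mul, ← map_mul] at this
  have L01 : Lft f ρ (jj ι (e8 * (c8 * e8 * c8⁻¹))) (E0 * E1) := by
    rw [map_mul]; exact L0.mul L1
  obtain ⟨β, hβ, b01⟩ : ∃ β : k, β ≠ 0 ∧ E0 * E1 = β • (E1 * E0) := by
    refine Lft.unique hz ?_ L01
    rw [e8_c1, map_mul]; exact L1.mul L0
  obtain ⟨γ, hγ, b02⟩ : ∃ γ : k, γ ≠ 0 ∧ E0 * E2 = γ • (E2 * E0) := by
    refine Lft.unique hz (L2.mul L0) ?_
    rw [← map_mul, ← e8_c2, map_mul]; exact L0.mul L2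
  have b12 : E1 * E2 = β • (E2 * E1) := by
    have := congrArg (cj ρ c) b01
    rwa [cj_mul, cj_smul, cj_mul, ← hE1, ← hE2] at this
  have b13 : E1 * E3 = γ • (E3 * E1) := by
    have := congrArg (cj ρ c) b02
    rwa [cj_mul, cj_smul, cj_mul, ← hE1, ← hE3] at this
  have b23 : E2 * E3 = β • (E3 * E2) := by
    have := congrArg (cj ρ c) b12
    rwa [cj_mul, cj_smul, cj_mul, ← hE2, ← hE3] at this
  obtain ⟨u, hu, e3⟩ : ∃ u : k, u ≠ 0 ∧ E3 = u • (E0 * E1) := by
    refine Lft.unique hz ?_ L3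
    rw [e8_c3]; exact L01
  have cancel : ∀ {a b : k} {X : Module.End k V}, X ≠ 0 → a • X = b • X → a = b := by
    intro a b X hX h
    have h7 : (a - b) • X = 0 := by rw [sub_smul, h, sub_self]
    rcases smul_eq_zero.mp h7 with h | h
    · exact sub_eq_zero.mp h
    · exact absurd h hX
  have hββ : β * β = 1 := by
    refine cancel L1.ne_zero ?_
    calc (β * β) • E1 = β • (β • (E1 * (E0 * E0))) := by rw [q0, mul_one, smul_smul]
      _ = β • ((E0 * E1) * E0) := by rw [b01, smul_mul_assoc, mul_assoc]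
      _ = E0 * (β • (E1 * E0)) := by rw [mul_smul_comm, mul_assoc]
      _ = (1 : k) • E1 := by rw [← b01, ← mul_assoc, q0, one_mul, one_smul]
  have hβγ : β = γ := by
    have h3 : E1 * (E0 * E1) = β • E0 := by
      rw [b01, mul_smul_comm, ← mul_assoc, q1, one_mul]
    have h4 : E1 * (E0 * E1) = γ • E0 := by
      have h5 : u • (E1 * (E0 * E1)) = u • (γ • E0) := by
        rw [← mul_smul_comm, ← e3, b13, e3, smul_mul_assoc, mul_assoc, q1, mul_one, smul_smul,
          smul_smul, mul_comm]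
      exact smul_right_injective _ hu h5
    exact cancel L0.ne_zero (h3.symm.trans h4)
  have hγ1 : γ = 1 := by
    have h3 : E2 * (E0 * E1) = β • ((E0 * E1) * E2) := by
      have h5 : u • (E2 * (E0 * E1)) = u • (β • ((E0 * E1) * E2)) := by
        rw [← mul_smul_comm, ← e3, b23, e3, smul_mul_assoc, smul_smul, smul_smul, mul_comm]
      exact smul_right_injective _ hu h5
    have h4 : (E0 * E1) * E2 = (β * γ) • (E2 * (E0 * E1)) := by
      rw [mul_assoc, b12, mul_smul_comm, ← mul_assoc, b02, smul_mul_assoc, smul_smul, mul_assoc]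
    have hne : E2 * (E0 * E1) ≠ 0 := (L2.mul L01).ne_zero
    have h5 : (1 : k) • (E2 * (E0 * E1)) = (β * (β * γ)) • (E2 * (E0 * E1)) := by
      rw [one_smul, ← smul_smul, ← h4, ← h3]
    have h6 := cancel hne h5
    rw [← mul_assoc, hββ, one_mul] at h6
    exact h6.symm
  have hβ1 : β = 1 := hβγ.trans hγ1
  rw [hβ1, one_smul] at b01 b12
  rw [hγ1, one_smul] at b02
  have hu2 : u * u = 1 := by
    have h3 : (u * u) • (1 : Module.End k V) = (1 : k) • 1 := by
      rw [one_smul]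
      calc (u * u) • (1 : Module.End k V) = (u * u) • ((E0 * E1) * (E0 * E1)) := by
            congr 1
            calc (1 : Module.End k V) = E0 * E0 := q0.symm
              _ = E0 * (E1 * E1) * E0 := by rw [q1, mul_one]
              _ = (E0 * E1) * (E1 * E0) := by simp only [mul_assoc]
              _ = (E0 * E1) * (E0 * E1) := by rw [b01]
        _ = E3 * E3 := by rw [e3, smul_mul_assoc, mul_smul_comm, smul_smul]
        _ = 1 := q3
    have h4 := smul_one_inj h3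
    simpa using h4
  -- normalised operators
  obtain ⟨F0, hF0⟩ : ∃ X : Module.End k V, X = u • E0 := ⟨_, rfl⟩
  obtain ⟨F1, hF1⟩ : ∃ X : Module.End k V, X = u • E1 := ⟨_, rfl⟩
  obtain ⟨F2, hF2⟩ : ∃ X : Module.End k V, X = u • E2 := ⟨_, rfl⟩
  have r0 : F0 * F0 = 1 := by
    rw [hF0, smul_mul_assoc, mul_smul_comm, smul_smul, q0, hu2, one_smul]
  have r1 : F1 * F1 = 1 := by
    rw [hF1, smul_mul_assoc, mul_smul_comm, smul_smul, q1, hu2, one_smul]
  have r2 : F2 * F2 = 1 := by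
    rw [hF2, smul_mul_assoc, mul_smul_comm, smul_smul, q2, hu2, one_smul]
  have d01 : F0 * F1 = F1 * F0 := by
    rw [hF0, hF1, smul_mul_assoc, mul_smul_comm, b01, smul_mul_assoc, mul_smul_comm]
  have d02 : F0 * F2 = F2 * F0 := by
    rw [hF0, hF2, smul_mul_assoc, mul_smul_comm, b02, smul_mul_assoc, mul_smul_comm]
  have d12 : F1 * F2 = F2 * F1 := by
    rw [hF1, hF2, smul_mul_assoc, mul_smul_comm, b12, smul_mul_assoc, mul_smul_comm]
  have c0 : cj ρ c F0 = F1 := by rw [hF0, cj_smul, ← hE1, hF1]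
  have c1 : cj ρ c F1 = F2 := by rw [hF1, cj_smul, ← hE2, hF2]
  have c2 : cj ρ c F2 = F0 * F1 := by
    rw [hF2, cj_smul, ← hE3, e3, hF0, hF1, smul_mul_assoc, mul_smul_comm]
  have c02 : cj ρ c (F0 * F2) = F0 := by
    rw [cj_mul, c0, c2, d01, ← mul_assoc, r1, one_mul]
  obtain ⟨em, hinj, em0, emadd, emex⟩ := exists_em k 2 (by exact_mod_cast hk)
  let P : ZMod 2 × ZMod 2 × ZMod 2 → Prop := fun w =>
    ∃ v : V, v ≠ 0 ∧ F0 v = em w.1 • v ∧ F1 v = em w.2.1 • v ∧ F2 v = em w.2.2 • v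
  have step : ∀ w, P w → P (w.1 + w.2.2, w.1, w.2.1) := by
    rintro w ⟨v, hv, v0, v1, v2⟩
    refine ⟨ρ c v, rho_ne_zero ρ c hv, ?_, ?_, ?_⟩
    · rw [cj_apply' c02, Module.End.mul_apply, v2, map_smul, v0, smul_smul, map_smul, emadd,
        mul_comm]
    · rw [cj_apply' c0, v0, map_smul]
    · rw [cj_apply' c1, v1, map_smul]
  obtain ⟨w0, hw0, hPw0⟩ : ∃ w : ZMod 2 × ZMod 2 × ZMod 2, w ≠ 0 ∧ P w := by
    have hF : F0 ≠ (1 : k) • 1 := lft_not_one hf hα hirr h2
      (fun h => e8_ne (jj_injective ι (by rw [h, map_one]))) (hF0 ▸ L0.smul hu) 1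
    set W : Submodule k V := LinearMap.range (F0 - 1) with hW
    have hWb : W ≠ ⊥ := by
      intro h
      rw [hW, LinearMap.range_eq_bot, sub_eq_zero] at h
      exact hF (by rw [h, one_smul])
    have hcomm : ∀ X : Module.End k V, F0 * X = X * F0 → ∀ w ∈ W, X w ∈ W := by
      rintro X hX _ ⟨v, rfl⟩
      refine ⟨X v, ?_⟩
      have := congrArg (fun T : Module.End k V => T v) hX
      simp only [Module.End.mul_apply] at this
      simp [this]
    obtain ⟨v, hv, hv0, hve⟩ := exists_common_eig ![F0, F1, F2] (by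
      have hh : ∀ X Y : Module.End k V, X * Y = Y * X → ∀ v, X (Y v) = Y (X v) := by
        intro X Y h v
        exact congrArg (fun T : Module.End k V => T v) h
      intro a b
      fin_cases a <;> fin_cases b <;>
        first
          | exact hh _ _ rfl
          | exact hh _ _ d01
          | exact hh _ _ d01.symm
          | exact hh _ _ d02
          | exact hh _ _ d02.symm
          | exact hh _ _ d12
          | exact hh _ _ d12.symm) W hWb (by
      intro n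
      fin_cases n
      · exact hcomm F0 rfl
      · exact hcomm F1 d01
      · exact hcomm F2 d02)
    have sq : ∀ (X : Module.End k V), X * X = 1 → (∃ μ : k, X v = μ • v) →
        ∃ i, X v = em i • v := by
      rintro X hX ⟨μ, hμ⟩
      have h3 : X (X v) = v := congrArg (fun T : Module.End k V => T v) hX
      rw [hμ, map_smul, hμ, smul_smul] at h3
      have h4 : μ * μ = 1 := by
        have h5 : (μ * μ - 1) • v = 0 := by rw [sub_smul, h3, one_smul, sub_self]
        rcases smul_eq_zero.mp h5 with h | h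
        · exact sub_eq_zero.mp h
        · exact absurd h hv0
      obtain ⟨i, hi⟩ := emex μ (by rw [pow_two, h4])
      exact ⟨i, by rw [hμ, hi]⟩
    obtain ⟨i0, h0⟩ := sq F0 r0 (hve 0)
    obtain ⟨i1, h1⟩ := sq F1 r1 (hve 1)
    obtain ⟨i2, h2'⟩ := sq F2 r2 (hve 2)
    refine ⟨(i0, i1, i2), ?_, v, hv0, h0, h1, h2'⟩
    intro h
    have hi0 : i0 = 0 := congrArg Prod.fst h
    rw [hi0, em0, one_smul] at h0
    obtain ⟨x, hx⟩ := hv
    have hx' : F0 x - x = v := by
      rw [← hx]; rfl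
    have h6 := fix_of_fix2 (X := F0) (m := 2) (by rw [pow_two, r0]) (by exact_mod_cast hk)
      (w := x) (by rw [hx', h0])
    exact hv0 (by rw [← hx', h6, sub_self])
  have hall : ∀ w : ZMod 2 × ZMod 2 × ZMod 2, w ≠ 0 → P w := by
    have key : ∀ w0 w : ZMod 2 × ZMod 2 × ZMod 2, w0 ≠ 0 → w ≠ 0 →
        ∃ n : Fin 7, (fun w : ZMod 2 × ZMod 2 × ZMod 2 => (w.1 + w.2.2, w.1, w.2.1))^[n.1] w0 = w := by
      decide
    intro w hw
    obtain ⟨n, hn⟩ := key w0 w hw0 hw
    rw [← hn]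
    exact iter_closed step _ _ hPw0
  choose! vv hv0 hv1 hv2 hv3 using hall
  have hcard : Fintype.card {w : ZMod 2 × ZMod 2 × ZMod 2 // w ≠ 0} = 7 := by decide
  rw [← hcard]
  refine card_le_of_weights ![F0, F1, F2]
    (fun w : {w : ZMod 2 × ZMod 2 × ZMod 2 // w ≠ 0} => vv w.1)
    (fun w => ![em w.1.1, em w.1.2.1, em w.1.2.2]) ?_ (fun w => hv0 _ w.2) ?_
  · intro w w' h
    have h0 := hinj (congrFun h 0)
    have h1 := hinj (congrFun h 1)
    have h2 := hinj (congrFun h 2)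
    exact Subtype.ext (Prod.ext h0 (Prod.ext h1 h2))
  · intro n w
    fin_cases n
    · exact hv1 _ w.2
    · exact hv2 _ w.2
    · exact hv3 _ w.2

end Cfsg.Agent.AltS
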