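import Cfsg.Agent.AltS.W89

set_option autoImplicit false

namespace Cfsg.Agent.AltS

open Module

variable {k V G α : Type*} [Field k] [AddCommGroup V] [Module k V] [Group G]
  [Fintype α] [DecidableEq α] {f : G →* alternatingGroup α} {ρ : G →* Module.End k V}

theorem comm_of_cj {g : G} {X : Module.End k V} (h : cj ρ g X = X) : ρ g * X = X * ρ g := by
  unfold cj at h
  calc ρ g * X = ρ g * X * (ρ g⁻¹ * ρ g) := by rw [rr', mul_one]
    _ = (ρ g * X * ρ g⁻¹) * ρ g := by simp only [mul_assoc]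
    _ = X * ρ g := by rw [h]

theorem Lft.comm_of_comm [Nontrivial V] (hz : Scal f ρ) {a : alternatingGroup α}
    {X Y Z : Module.End k V} (hX : Lft f ρ a X) (hY : Lft f ρ a Y) (h : X * Z = Z * X) :
    Y * Z = Z * Y := by
  obtain ⟨u, _, rfl⟩ := Lft.unique hz hX hY
  rw [smul_mul_assoc, mul_smul_comm, h]

theorem smul_inj_vec {v : V} (hv : v ≠ 0) {a b : k} (h : a • v = b • v) : a = b := by
  have h7 : (a - b) • v = 0 := by rw [sub_smul, h, sub_self]
  rcases smul_eq_zero.mp h7 with h | h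
  · exact sub_eq_zero.mp h
  · exact absurd h hv

/-- common eigenvectors of two commuting operators of exponent `m`, the first nontrivial. -/
theorem exists_weight2 [IsAlgClosed k] [FiniteDimensional k V] {A B : Module.End k V}
    (hAB : A * B = B * A) {m : ℕ} (hm : (m : k) ≠ 0) (hA : A ^ m = 1) (hB : B ^ m = 1)
    (hA1 : A ≠ 1) {em : ZMod m → k} (em0 : em 0 = 1) (emex : ∀ l : k, l ^ m = 1 → ∃ i, em i = l) :
    ∃ i j : ZMod m, i ≠ 0 ∧ ∃ v : V, v ≠ 0 ∧ A v = em i • v ∧ B v = em j • v := by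
  set W : Submodule k V := LinearMap.range (A - 1) with hW
  have hWb : W ≠ ⊥ := by
    intro h
    rw [hW, LinearMap.range_eq_bot, sub_eq_zero] at h
    exact hA1 h
  have hcomm : ∀ X : Module.End k V, A * X = X * A → ∀ w ∈ W, X w ∈ W := by
    rintro X hX _ ⟨v, rfl⟩
    refine ⟨X v, ?_⟩
    have := congrArg (fun T : Module.End k V => T v) hX
    simp only [Module.End.mul_apply] at this
    simp [this]
  obtain ⟨v, hv, hv0, hve⟩ := exists_common_eig ![A, B] (by
    have hh : ∀ X Y : Module.End k V, X * Y = Y * X → ∀ v, X (Y v) = Y (X v) := by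
      intro X Y h v
      exact congrArg (fun T : Module.End k V => T v) h
    intro a b
    fin_cases a <;> fin_cases b <;>
      first
        | exact hh _ _ rfl
        | exact hh _ _ hAB
        | exact hh _ _ hAB.symm) W hWb (by
    intro n
    fin_cases n
    · exact hcomm A rfl
    · exact hcomm B hAB)
  have pw : ∀ (X : Module.End k V), X ^ m = 1 → (∃ μ : k, X v = μ • v) → ∃ i, X v = em i • v := by
    rintro X hX ⟨μ, hμ⟩
    have h3 : ∀ n : ℕ, (X ^ n) v = (μ ^ n) • v := by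
      intro n
      induction n with
      | zero => simp
      | succ n ih => rw [pow_succ', Module.End.mul_apply, ih, map_smul, hμ, smul_smul, pow_succ]
    have h4 := h3 m
    rw [hX, Module.End.one_apply] at h4
    obtain ⟨i, hi⟩ := emex μ (smul_inj_vec hv0 (by rw [← h4, one_smul]))
    exact ⟨i, by rw [hμ, hi]⟩
  obtain ⟨i, hi⟩ := pw A hA (hve 0)
  obtain ⟨j, hj⟩ := pw B hB (hve 1)
  refine ⟨i, j, ?_, v, hv0, hi, hj⟩
  rintro rfl
  rw [em0, one_smul] at hi
  obtain ⟨x, hx⟩ := hv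
  have hx' : A x - x = v := by
    rw [← hx]; rfl
  have h6 := fix_of_fix2 (X := A) hA hm (w := x) (by rw [hx', hi])
  exact hv0 (by rw [← hx', h6, sub_self])

theorem w9 [IsAlgClosed k] [FiniteDimensional k V] (hf : Cov f) (hz : Scal f ρ)
    (hirr : IrrOn ρ ⊤) (h2 : 2 ≤ finrank k V) (hk : (3 : k) ≠ 0) (ι : Fin 9 ↪ α) :
    8 ≤ finrank k V := by
  have : Nontrivial V := Module.nontrivial_of_finrank_pos (R := k) (by omega)
  have hα : 5 ≤ Fintype.card α := by
    have := Fintype.card_le_of_embedding ι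
    rw [Fintype.card_fin] at this
    omega
  have hm : Odd 3 := by decide
  obtain ⟨gx, hgx⟩ := hf.surj (jj ι x9)
  obtain ⟨gb, hgb⟩ := hf.surj (jj ι b9)
  obtain ⟨gg, hgg⟩ := hf.surj (jj ι g9)
  obtain ⟨gh, hgh⟩ := hf.surj (jj ι h9)
  obtain ⟨gs, hgs⟩ := hf.surj (jj ι s9)
  obtain ⟨A, LA, CA⟩ := Can.exists hf hz (t := gg * gg) hm (a := jj ι a9)
    (by rw [← map_pow, a9_cube, map_one])
    (by rw [map_mul f, hgg, ← map_mul, ← map_inv, ← map_mul, ← map_mul, gg9_a9, map_inv])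
  obtain ⟨B, hB⟩ : ∃ X : Module.End k V, X = cj ρ gg A := ⟨_, rfl⟩
  have LB : Lft f ρ (jj ι b9) B := by
    have := LA.cj gg
    rwa [← hB, hgg, ← map_inv, ← map_mul, ← map_mul, g9_a9] at this
  have CB : Can ρ (gg * gg) 3 B := by
    rw [hB]
    exact CA.cj hz (by rw [map_mul f, hgg, mul_assoc])
  -- commuting
  obtain ⟨X1, hX1⟩ : ∃ X : Module.End k V, X = ρ gx := ⟨_, rfl⟩
  obtain ⟨X2, hX2⟩ : ∃ X : Module.End k V, X = cj ρ gb X1 := ⟨_, rfl⟩
  obtain ⟨X3, hX3⟩ : ∃ X : Module.End k V, X = cj ρ gb X2 := ⟨_, rfl⟩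
  have LX1 : Lft f ρ (jj ι x9) X1 := by rw [hX1, ← hgx]; exact Lft.rho gx
  have LX2 : Lft f ρ (jj ι (b9 * x9 * b9⁻¹)) X2 := by
    have := LX1.cj gb
    rwa [← hX2, hgb, ← map_inv, ← map_mul, ← map_mul] at this
  have LX3 : Lft f ρ (jj ι (b9 * (b9 * x9 * b9⁻¹) * b9⁻¹)) X3 := by
    have := LX2.cj gb
    rwa [← hX3, hgb, ← map_inv, ← map_mul, ← map_mul] at this
  have c12 : X1 * X2 = X2 * X1 := by
    refine comm_of_inv hz (s := gs) hm ?_ ?_ ?_ ?_ LX1 LX2
    · rw [← map_mul, x9_comm, map_mul]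
    · rw [← map_pow, x9_cube, map_one]
    · rw [hgs, ← map_mul, ← map_inv, ← map_mul, s9_x9, map_inv]
    · rw [hgs, ← map_mul, ← map_inv, ← map_mul, s9_x9']
  have c23 : X2 * X3 = X3 * X2 := by
    have := congrArg (cj ρ gb) c12
    rwa [cj_mul, cj_mul, ← hX2, ← hX3] at this
  have hX31 : cj ρ gb X3 = X1 := by
    rw [hX3, hX2, ← cj_comp, ← cj_comp]
    apply cj_ker hz
    rw [map_mul, map_mul, hgb, ← map_mul, ← map_mul, mul_assoc, ← mul_assoc, b9_cube, map_one]
  have c31 : X3 * X1 = X1 * X3 := by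
    have := congrArg (cj ρ gb) c23
    rwa [cj_mul, cj_mul, ← hX3, hX31] at this
  have LX : Lft f ρ (jj ι a9) (X1 * X2 * X3) := by
    have := (LX1.mul LX2).mul LX3
    rwa [← map_mul, ← map_mul, x9_a9] at this
  have hXc : cj ρ gb (X1 * X2 * X3) = X1 * X2 * X3 := by
    rw [cj_mul, cj_mul, hX31, ← hX2, ← hX3, mul_assoc, c31, ← mul_assoc, c12]
  have hAB : A * B = B * A := by
    have h1 := comm_of_cj hXc
    have h3 : A * ρ gb = ρ gb * A := Lft.comm_of_comm hz LX LA h1.symm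
    exact (Lft.comm_of_comm hz (hgb ▸ Lft.rho gb) LB h3.symm).symm
  -- relations
  have gB : cj ρ gg B = A ^ 2 := by
    rw [hB, ← cj_comp]
    calc cj ρ (gg * gg) A = cj ρ (gg * gg) A * A ^ 3 := by rw [CA.1, mul_one]
      _ = (cj ρ (gg * gg) A * A) * A ^ 2 := by rw [pow_succ' A 2]; simp only [mul_assoc]
      _ = A ^ 2 := by rw [CA.2, one_mul]
  have ht : f gh * f (gg * gg) = f (gg * gg) * f gh := by
    rw [map_mul f, hgg, hgh, ← map_mul, ← map_mul, ← map_mul, gh9]
  have hA' : cj ρ gh A = A * B := by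
    refine Can.unique hz hm (a := jj ι (a9 * b9)) ?_ ?_ (CA.cj hz ht) (CA.mul hAB CB)
    · have := LA.cj gh
      rwa [hgh, ← map_inv, ← map_mul, ← map_mul, h9_a9] at this
    · rw [map_mul]; exact LA.mul LB
  have hB' : cj ρ gh B = A * B ^ 2 := by
    refine Can.unique hz hm (a := jj ι (a9 * b9 ^ 2)) ?_ ?_ (CB.cj hz ht)
      (CA.mul ?_ (CB.pow 2))
    · have := LB.cj gh
      rwa [hgh, ← map_inv, ← map_mul, ← map_mul, h9_b9] at this
    · rw [map_mul, map_pow]; exact LA.mul (LB.pow 2)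
    · exact (Commute.pow_right hAB 2)
  obtain ⟨em, hinj, em0, emadd, emex⟩ := exists_em k 3 (by exact_mod_cast hk)
  have em0' : ∀ i, em i ≠ 0 := by
    intro i h
    have : em (i + -i) = 0 := by rw [emadd, h, zero_mul]
    rw [add_neg_cancel, em0] at this
    exact one_ne_zero this
  let P : ZMod 3 × ZMod 3 → Prop := fun w =>
    ∃ v : V, v ≠ 0 ∧ A v = em w.1 • v ∧ B v = em w.2 • v
  have stepg : ∀ w, P w → P (2 * w.2, w.1) := by
    rintro w ⟨v, hv, v0, v1⟩
    refine ⟨ρ gg v, rho_ne_zero ρ gg hv, ?_, ?_⟩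
    · have h3 : (A ^ 2) (ρ gg v) = em w.2 • ρ gg v := by
        rw [cj_apply' gB, v1, map_smul]
      have h8 : A = A ^ 2 * A ^ 2 := by
        rw [← pow_add]
        have : A ^ (2 + 2) = A ^ 3 * A := by rw [← pow_succ]
        rw [this, CA.1, one_mul]
      have h4 : A (ρ gg v) = (A ^ 2) ((A ^ 2) (ρ gg v)) :=
        congrArg (fun T : Module.End k V => T (ρ gg v)) h8
      rw [h4, h3, map_smul, h3, smul_smul, ← emadd, two_mul]
    · rw [cj_apply' hB.symm, v0, map_smul]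
  have steph : ∀ w, P w → P (2 * w.1 - w.2, w.2 - w.1) := by
    rintro w ⟨v, hv, v0, v1⟩
    have hv' := rho_ne_zero ρ gh hv
    have h3 : (A * B) (ρ gh v) = em w.1 • ρ gh v := by
      rw [cj_apply' hA', v0, map_smul]
    have h4 : (A * B ^ 2) (ρ gh v) = em w.2 • ρ gh v := by
      rw [cj_apply' hB', v1, map_smul]
    have h5 : B (ρ gh v) = em (w.2 - w.1) • ρ gh v := by
      have h6 : em w.1 • B (ρ gh v) = em w.2 • ρ gh v := by
        rw [← map_smul, ← h3, ← h4, ← Module.End.mul_apply]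
        congr 1
        rw [pow_two, ← mul_assoc, ← mul_assoc, ← hAB]
      have h7 : em w.1 • B (ρ gh v) = em w.1 • (em (w.2 - w.1) • ρ gh v) := by
        rw [h6, smul_smul, ← emadd, add_sub_cancel]
      exact smul_right_injective _ (em0' w.1) h7
    refine ⟨ρ gh v, hv', ?_, h5⟩
    rw [Module.End.mul_apply, h5, map_smul] at h3
    have h7 : em (w.2 - w.1) • A (ρ gh v) =
        em (w.2 - w.1) • (em (2 * w.1 - w.2) • ρ gh v) := by
      rw [h3, smul_smul, ← emadd]
      congr 2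
      ring
    exact smul_right_injective _ (em0' _) h7
  obtain ⟨i, j, hi, hPij⟩ := exists_weight2 hAB (m := 3) (by exact_mod_cast hk) CA.1 CB.1
    (by
      have := lft_not_one hf hα hirr h2
        (fun h => a9_ne (jj_injective ι (by rw [h, map_one]))) LA 1
      rwa [one_smul] at this) em0 emex
  have hall : ∀ w : ZMod 3 × ZMod 3, w ≠ 0 → P w := by
    have key : ∀ w0 w : ZMod 3 × ZMod 3, w0 ≠ 0 → w ≠ 0 → ∃ (n : Fin 4) (l : Fin 2),
        (fun w : ZMod 3 × ZMod 3 => (2 * w.2, w.1))^[n.1]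
          ((fun w : ZMod 3 × ZMod 3 => (2 * w.1 - w.2, w.2 - w.1))^[l.1] w0) = w := by
      decide +kernel
    intro w hw
    obtain ⟨n, l, hn⟩ := key (i, j) w (fun h => hi (congrArg Prod.fst h)) hw
    rw [← hn]
    exact iter_closed stepg _ _ (iter_closed steph _ _ hPij)
  choose! vv hv0 hv1 hv2 using hall
  have hcard : Fintype.card {w : ZMod 3 × ZMod 3 // w ≠ 0} = 8 := by decide +kernel
  rw [← hcard]
  refine card_le_of_weights ![A, B]
    (fun w : {w : ZMod 3 × ZMod 3 // w ≠ 0} => vv w.1)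
    (fun w => ![em w.1.1, em w.1.2]) ?_ (fun w => hv0 _ w.2) ?_
  · intro w w' h
    have h0 := hinj (congrFun h 0)
    have h1 := hinj (congrFun h 1)
    exact Subtype.ext (Prod.ext h0 h1)
  · intro n w
    fin_cases n
    · exact hv1 _ w.2
    · exact hv2 _ w.2

end Cfsg.Agent.AltS
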